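import Mathlib
import Cfsg.Agent.H33.GF0
import Cfsg.Agent.Dk.Thirteen
import Cfsg.Agent.H14.KleinPSL

/-! `PSL₂(3^(2n+1))`: generation by the normalizer of a Sylow 2-subgroup and a conjugate. -/

set_option autoImplicit false

namespace Cfsg.Agent.H14.GFP

open MulAction Matrix Subgroup LinearAlgebra.Projectivization Projectivization
open scoped MatrixGroups Pointwise
open Dk
open H81 (pt0 pt1 ptz ptc)

theorem q_facts {n q : ℕ} (hn : 1 ≤ n) (hq : q = 3 ^ (2 * n + 1)) :
    27 ≤ q ∧ q % 8 = 3 ∧ q % 3 = 0 := by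
  obtain ⟨m, rfl⟩ : ∃ m, n = m + 1 := ⟨n - 1, by omega⟩
  have h9 : 9 ^ m % 8 = 1 := by rw [Nat.pow_mod]; simp
  have h1 : q = 27 * 9 ^ m := by
    rw [hq, show 2 * (m + 1) + 1 = 3 + 2 * m by ring, pow_add, pow_mul]; norm_num
  have h2 : 1 ≤ 9 ^ m := Nat.one_le_pow _ _ (by norm_num)
  omega

section core

variable {F : Type*} [Field F] [Finite F]

attribute [local instance 10] pact sact

theorem card_div (h8 : Nat.card F % 8 = 3) :
    4 ∣ Nat.card PSL(2, F) ∧ ¬ 8 ∣ Nat.card PSL(2, F) := by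
  have ho : Odd (Nat.card F) := by rw [Nat.odd_iff]; omega
  have h := card_psl_odd ho
  obtain ⟨k, hk⟩ : ∃ k, Nat.card F = 8 * k + 3 := ⟨Nat.card F / 8, by omega⟩
  rw [hk] at h
  have h1 : Nat.card PSL(2, F) = 4 * ((8 * k + 3) * ((4 * k + 1) * (2 * k + 1))) := by
    have h2 : 8 * k + 3 - 1 = 8 * k + 2 := by omega
    rw [h2] at h
    have h3 : (8 * k + 3) * ((8 * k + 2) * (8 * k + 3 + 1)) =
      2 * (4 * ((8 * k + 3) * ((4 * k + 1) * (2 * k + 1)))) := by ring
    rw [h3] at h
    exact Nat.eq_of_mul_eq_mul_left (by norm_num) h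
  rw [h1]
  refine ⟨⟨_, rfl⟩, ?_⟩
  rintro ⟨c, hc⟩
  have h4 : Odd ((8 * k + 3) * ((4 * k + 1) * (2 * k + 1))) := by
    apply Odd.mul
    · rw [Nat.odd_iff]; omega
    · apply Odd.mul
      · rw [Nat.odd_iff]; omega
      · rw [Nat.odd_iff]; omega
  obtain ⟨d, hd⟩ := h4
  omega

/-- a subgroup whose order is divisible by `3(q+1)` is everything -/
theorem eq_top_of_dvd (h8 : Nat.card F % 8 = 3) (h27 : 27 ≤ Nat.card F)
    {M : Subgroup PSL(2, F)} (hM : 3 * (Nat.card F + 1) ∣ Nat.card M) : M = ⊤ := by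
  have hfin : Finite PSL(2, F) := finite_psl
  have ho : Odd (Nat.card F) := by rw [Nat.odd_iff]; omega
  by_contra hne
  obtain ⟨N, hN, hMN⟩ := (eq_top_or_exists_le_coatom M).resolve_left hne
  have hd : 3 * (Nat.card F + 1) ∣ Nat.card N := hM.trans (Subgroup.card_dvd_of_le hMN)
  obtain ⟨p, hp, hpF⟩ := exists_char (F := F)
  have : Fact p.Prime := ⟨hp⟩
  let K := AlgebraicClosure F
  have : CharP K p := charP_of_injective_algebraMap (algebraMap F K).injective p
  have ht : 2 * ((ambS (F := F) (K := K)).mob (p := p)).t (pt0 K) = Nat.card F - 1 := by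
    have h1 := t_psl (p := p) (F := F) (K := K)
    rw [gcd_odd ho] at h1
    exact h1
  have hNpos : 0 < Nat.card N := Nat.card_pos
  have hle := Nat.le_of_dvd hNpos hd
  rcases (ambS (F := F) (K := K)).coatoms (p := p) (by omega) hN with
    ⟨z, hz, hNz, hc⟩ | ⟨z, w, hzw, hNz, ⟨s, hs1, hs2⟩, hc⟩ | ⟨-, hc, -⟩ | ⟨-, hc, -⟩ | ⟨-, hc, -⟩ |
    ⟨g, K1, hK1, hcj⟩
  · -- Borel subgroup
    rw [hc] at hd
    have h1 : (Nat.card F + 1) ∣ Nat.card F * ((ambS (F := F) (K := K)).mob (p := p)).t (pt0 K) :=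
      (Dvd.intro_left 3 rfl).trans hd
    have h2 : Nat.Coprime (Nat.card F + 1) (Nat.card F) := by
      rw [Nat.coprime_self_add_left]; exact Nat.coprime_one_left _
    have h3 := Nat.le_of_dvd (by omega) (h2.dvd_of_dvd_mul_left h1)
    omega
  · have hD := (mobS (p := p) (F := F) (K := K)).DS_dihedral hzw hs1 hs2
    rw [hNz, hD.2] at hle
    rcases hc with ⟨-, -, hc⟩ | ⟨-, hc⟩
    · rw [hc] at hle
      omega
    · have h3 : 2 * Nat.card (TS PSL(2, F) z w) = Nat.card F + 1 := by
        have h5 : 0 < Nat.card F - 1 := by omega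
        apply Nat.eq_of_mul_eq_mul_right h5
        calc 2 * Nat.card (TS PSL(2, F) z w) * (Nat.card F - 1) =
            2 * (Nat.card (TS PSL(2, F) z w) * (Nat.card F - 1)) := by ring
          _ = (Nat.card F + 1) * (2 * ((ambS (F := F) (K := K)).mob (p := p)).t (pt0 K)) := by
            rw [hc]; ring
          _ = _ := by rw [ht]
      omega
  · omega
  · omega
  · omega
  · rcases coatom_sub_odd ho hN hcj with ⟨h1, h2⟩ | ⟨h1, r, hr, hro, h2⟩
    · have h3 : Nat.card K1 ^ 2 % 8 = 3 := by rw [h2]; exact h8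
      rw [Nat.pow_mod] at h3
      have : Nat.card K1 % 8 < 8 := Nat.mod_lt _ (by norm_num)
      interval_cases (Nat.card K1 % 8) <;> omega
    · have h3 : 3 ≤ r := by
        rcases hro with ⟨c, hc⟩
        have := hr.two_le
        omega
      have h4 : Nat.card K1 ^ 3 ≤ Nat.card F := by
        rw [← h2]; exact Nat.pow_le_pow_right (by omega) h3
      have h5 : Nat.card N ≤ Nat.card (PGLs K1) := by
        rw [← card_im N, ← card_cj g (im N), h1]
        exact card_PSLs_le K1
      rw [card_PGLs] at h5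
      obtain ⟨c, hc⟩ : ∃ c, Nat.card K1 = c + 1 := ⟨Nat.card K1 - 1, by omega⟩
      rw [hc] at h4 h5
      have h6 : (c + 1) * ((c + 1 - 1) * (c + 1 + 1)) ≤ (c + 1) ^ 3 := by
        have : c + 1 - 1 = c := by omega
        rw [this]
        nlinarith
      omega

/-- elements of order four do not exist -/
theorem sq_of_four (h8 : Nat.card F % 8 = 3) {g : PSL(2, F)} (hg : g ^ 4 = 1) : g * g = 1 := by
  have hfin : Finite PSL(2, F) := finite_psl
  have ho : Odd (Nat.card F) := by rw [Nat.odd_iff]; omega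
  have h2 : (2 : F) ≠ 0 := two_ne_of_odd ho
  obtain ⟨p, hp, hpF⟩ := exists_char (F := F)
  have : Fact p.Prime := ⟨hp⟩
  let K := AlgebraicClosure F
  have : CharP K p := charP_of_injective_algebraMap (algebraMap F K).injective p
  have M := mobS (p := p) (F := F) (K := K)
  by_contra hne
  have hbb : (g * g) * (g * g) = 1 := by
    rw [← hg]; simp only [pow_succ, pow_zero, one_mul, mul_assoc]
  obtain ⟨x, y, hxy, hT⟩ := inv_pair (p := p) K h2 hne hbb
  have hb1 : TS PSL(2, F) x y ≠ ⊥ := by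
    intro h1; rw [h1, Subgroup.mem_bot] at hT; exact hne hT
  obtain ⟨-, hc⟩ := card_TS_pair (p := p) h2 hxy hb1
  have h4 : ¬ 4 ∣ Nat.card (TS PSL(2, F) x y) := by
    intro hd; rcases hc with ⟨-, hc⟩ | ⟨-, hc⟩ <;> omega
  -- `g` permutes the fixed points of `g * g`
  have hfix : ∀ z : ℙ K (Fin 2 → K), (g * g) • z = z → z = x ∨ z = y := by
    intro z hz
    by_contra hcon
    push Not at hcon
    exact hne (M.eq_one_of_three hcon.1 hcon.2 hxy hz hT.1 hT.2)
  have hgx : (g * g) • (g • x) = g • x := by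
    have h5 : (g * g) • x = x := hT.1
    calc (g * g) • (g • x) = g • ((g * g) • x) := by simp [mul_smul]
      _ = g • x := by rw [h5]
  have hgy : (g * g) • (g • y) = g • y := by
    have h5 : (g * g) • y = y := hT.2
    calc (g * g) • (g • y) = g • ((g * g) • y) := by simp [mul_smul]
      _ = g • y := by rw [h5]
  rcases hfix _ hgx with h5 | h5
  · have h6 : g • y = y := by
      rcases hfix _ hgy with h6 | h6
      · exfalso; apply hxy
        have : g • x = g • y := by rw [h5, h6]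
        exact smul_left_cancel g this
      · exact h6
    have hgT : g ∈ TS PSL(2, F) x y := ⟨h5, h6⟩
    apply h4
    have h7 : orderOf g = 4 := by
      have h8 : orderOf g ∣ 2 ^ 2 := orderOf_dvd_of_pow_eq_one hg
      obtain ⟨k, hk, hk2⟩ := (Nat.dvd_prime_pow Nat.prime_two).1 h8
      interval_cases k
      · exfalso; apply hne
        rw [pow_zero, orderOf_eq_one_iff] at hk2
        rw [hk2, mul_one]
      · exfalso; apply hne
        have := pow_orderOf_eq_one g
        rw [hk2, pow_one, sq] at this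
        exact this
      · exact hk2
    rw [← h7]
    exact Subgroup.orderOf_dvd_natCard _ hgT
  · have h6 : g • y = x := by
      rcases hfix _ hgy with h6 | h6
      · exact h6
      · exfalso; apply hxy
        have : g • x = g • y := by rw [h5, h6]
        exact smul_left_cancel g this
    exact hne (M.swap_sq hxy h5 h6)

/-- the main construction -/
theorem core (h3 : Nat.card F % 3 = 0) (h8 : Nat.card F % 8 = 3) (h27 : 27 ≤ Nat.card F)
    {T : Subgroup PSL(2, F)} (hT : IsKleinFour T) {a b : PSL(2, F)} (ha : a ∈ T) (hb : b ∈ T)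
    (ha1 : a ≠ 1) (hb1 : b ≠ 1) (hab : a ≠ b) :
    ∃ x : PSL(2, F), 4 * orderOf x = Nat.card F + 1 ∧ a * x * a⁻¹ = x⁻¹ ∧ b * x = x * b ∧
      ∀ M : Subgroup PSL(2, F), normalizer (T : Set PSL(2, F)) ≤ M →
        (∀ s ∈ T, x * s * x⁻¹ ∈ M) → M = ⊤ := by
  have hfin : Finite PSL(2, F) := finite_psl
  have ho : Odd (Nat.card F) := by rw [Nat.odd_iff]; omega
  have h2 : (2 : F) ≠ 0 := two_ne_of_odd ho
  obtain ⟨p, hp, hpF⟩ := exists_char (F := F)
  have : Fact p.Prime := ⟨hp⟩
  let K := AlgebraicClosure F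
  have : CharP K p := charP_of_injective_algebraMap (algebraMap F K).injective p
  have M := mobS (p := p) (F := F) (K := K)
  have hsq : ∀ t ∈ T, t * t = 1 := by
    intro t ht
    have h5 := Monoid.pow_exponent_eq_one (⟨t, ht⟩ : T)
    rw [hT.exponent_two] at h5
    have h6 := congrArg (fun z : T => (z : PSL(2, F))) h5
    rw [← sq]; exact h6
  obtain ⟨z, w, hzw, hTz⟩ := inv_pair (p := p) K h2 hb1 (hsq b hb)
  have hTb : TS PSL(2, F) z w ≠ ⊥ := by
    intro h1; rw [h1, Subgroup.mem_bot] at hTz; exact hb1 hTz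
  have hcyc := M.cyclic_TS hzw
  have ob : orderOf b = 2 := orderOf_eq_prime (by rw [sq, hsq b hb]) hb1
  have hcard : 2 * Nat.card (TS PSL(2, F) z w) = Nat.card F + 1 := by
    obtain ⟨-, hc⟩ := card_TS_pair (p := p) h2 hzw hTb
    have h5 := Subgroup.orderOf_dvd_natCard _ hTz
    rw [ob] at h5
    rcases hc with ⟨-, hc⟩ | ⟨-, hc⟩
    · exfalso; omega
    · exact hc
  -- `a` swaps the two points
  have hcomm : a * b = b * a := by
    have h5 := hsq (a * b) (T.mul_mem ha hb)
    calc a * b = (a * b) * ((a * b) * (a * b)) := by rw [h5, mul_one]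
      _ = (a * b) * (a * b) * (a * b) := by group
      _ = ((a * b) * (a * b)) * (b⁻¹ * a⁻¹)⁻¹ := by group
      _ = (b⁻¹ * a⁻¹)⁻¹ := by rw [h5, one_mul]
      _ = (b * a) := by
        rw [inv_eq_of_mul_eq_one_left (hsq a ha), inv_eq_of_mul_eq_one_left (hsq b hb)]
        exact inv_eq_of_mul_eq_one_left (hsq _ (T.mul_mem hb ha))
  have hfix : ∀ v : ℙ K (Fin 2 → K), b • v = v → v = z ∨ v = w := by
    intro v hv
    by_contra hcon
    push Not at hcon
    exact hb1 (M.eq_one_of_three hcon.1 hcon.2 hzw hv hTz.1 hTz.2)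
  have haz : b • (a • z) = a • z := by
    rw [← mul_smul, ← hcomm, mul_smul]
    exact congrArg _ hTz.1
  have haw : b • (a • w) = a • w := by
    rw [← mul_smul, ← hcomm, mul_smul]
    exact congrArg _ hTz.2
  have haT : a ∉ TS PSL(2, F) z w := by
    intro haT
    have h4 : ¬ 4 ∣ Nat.card (TS PSL(2, F) z w) := by intro hd; omega
    have h5 : (closure {a, b} : Subgroup PSL(2, F)) ≤ TS PSL(2, F) z w := by
      rw [closure_le]; rintro v (rfl | rfl)
      · exact haT
      · exact hTz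
    have h6 : T ≤ TS PSL(2, F) z w := by
      intro t ht
      by_contra htn
      have ht1 : t ≠ 1 := by rintro rfl; exact htn (one_mem _)
      have hta : t ≠ a := by rintro rfl; exact htn haT
      have htb : t ≠ b := by rintro rfl; exact htn hTz
      have := hT
      have h7 := (IsKleinFour.eq_mul_of_ne_all (G := T) (x := ⟨a, ha⟩) (y := ⟨b, hb⟩) (z := ⟨t, ht⟩)
        (by intro h; exact ha1 (congrArg Subtype.val h))
        (by intro h; exact hb1 (congrArg Subtype.val h))
        (by intro h; exact hab (congrArg Subtype.val h))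
        (by intro h; exact ht1 (congrArg Subtype.val h))
        (by intro h; exact hta (congrArg Subtype.val h))
        (by intro h; exact htb (congrArg Subtype.val h)))
      have h8 : t = a * b := congrArg Subtype.val h7
      exact htn (h8 ▸ (TS PSL(2, F) z w).mul_mem haT hTz)
    apply h4
    have h7 := Subgroup.card_dvd_of_le h6
    rwa [hT.card_four] at h7
  have hswap : a • z = w ∧ a • w = z := by
    rcases hfix _ haz with h5 | h5 <;> rcases hfix _ haw with h6 | h6
    · exfalso; apply hzw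
      exact smul_left_cancel a (h5.trans h6.symm)
    · exact absurd ⟨h5, h6⟩ haT
    · exact ⟨h5, h6⟩
    · exfalso; apply hzw
      exact smul_left_cancel a (h5.trans h6.symm)
  have hinv : ∀ g ∈ TS PSL(2, F) z w, a * g * a⁻¹ = g⁻¹ := by
    intro g hg
    have h5 : (a * g) * (a * g) = 1 := by
      apply M.swap_sq hzw
      · rw [mul_smul, show g • z = z from hg.1, hswap.1]
      · rw [mul_smul, show g • w = w from hg.2, hswap.2]
    have h6 : a⁻¹ = a := inv_eq_of_mul_eq_one_left (hsq a ha)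
    rw [h6]
    apply eq_inv_of_mul_eq_one_left
    rw [← h5]; group
  obtain ⟨⟨g, hgT⟩, hg⟩ := hcyc.exists_generator
  have hog : orderOf g = Nat.card (TS PSL(2, F) z w) := by
    have h5 := orderOf_eq_card_of_forall_mem_zpowers hg
    rw [← h5, Subgroup.orderOf_mk]
  have hox : orderOf (g ^ 2) = orderOf g / 2 := by
    rw [orderOf_pow' g (by norm_num)]
    congr 1
    apply Nat.gcd_eq_right
    rw [hog]; omega
  refine ⟨g ^ 2, by rw [hox, hog]; omega, hinv _ (pow_mem hgT 2),
    M.comm_TS hzw hTz (pow_mem hgT 2), ?_⟩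
  intro N hN hNx
  have haN : a ∈ N := hN (Subgroup.le_normalizer ha)
  have hxx : g ^ 2 * g ^ 2 ∈ N := by
    have h5 := hNx a ha
    have h6 : g ^ 2 * a * (g ^ 2)⁻¹ = (g ^ 2 * g ^ 2) * a := by
      have h7 := hinv _ (pow_mem hgT 2)
      calc g ^ 2 * a * (g ^ 2)⁻¹ = g ^ 2 * a * (a * g ^ 2 * a⁻¹) := by rw [h7]
        _ = g ^ 2 * (a * a) * g ^ 2 * a⁻¹ := by simp only [mul_assoc]
        _ = g ^ 2 * g ^ 2 * a := by
          rw [hsq a ha, mul_one, inv_eq_of_mul_eq_one_left (hsq a ha)]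
    rw [h6] at h5
    exact (N.mul_mem_cancel_right haN).1 h5
  have hxN : g ^ 2 ∈ N := by
    have h5 : Odd (orderOf (g ^ 2)) := by
      rw [hox, hog, Nat.odd_iff]; omega
    obtain ⟨c, hc⟩ := h5
    have h6 : (g ^ 2 * g ^ 2) ^ (c + 1) = g ^ 2 := by
      rw [← sq, ← pow_mul, show 2 * (c + 1) = (2 * c + 1) + 1 by ring, pow_succ, ← hc,
        pow_orderOf_eq_one, one_mul]
    rw [← h6]; exact pow_mem hxx _
  apply eq_top_of_dvd h8 h27
  have d1 : 4 ∣ Nat.card N := by
    have h5 := Subgroup.card_dvd_of_le (Subgroup.le_normalizer.trans hN)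
    rwa [hT.card_four] at h5
  have d3 : 3 ∣ Nat.card N := by
    have h5 := Subgroup.card_dvd_of_le hN
    obtain ⟨e1, e2⟩ := card_div (F := F) h8
    have : IsKleinFour T := hT
    rw [H14.Klein.card_normalizer_12 h2 e1 e2 hT] at h5
    exact (by norm_num : 3 ∣ 12).trans h5
  have dx : orderOf (g ^ 2) ∣ Nat.card N := Subgroup.orderOf_dvd_natCard N hxN
  have hx4 : 4 * orderOf (g ^ 2) = Nat.card F + 1 := by rw [hox, hog]; omega
  have h5 : Nat.Coprime 4 (orderOf (g ^ 2)) := by
    have : Odd (orderOf (g ^ 2)) := by rw [hox, hog, Nat.odd_iff]; omega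
    rw [show 4 = 2 ^ 2 by norm_num]
    exact Nat.Coprime.pow_left 2 (Nat.coprime_two_left.2 this)
  have h6 := h5.mul_dvd_of_dvd_of_dvd d1 dx
  rw [hx4] at h6
  have h7 : Nat.Coprime 3 (Nat.card F + 1) := by
    rw [Nat.Prime.coprime_iff_not_dvd Nat.prime_three]
    omega
  exact h7.mul_dvd_of_dvd_of_dvd d3 h6

end core

theorem cond {q m r k : ℕ} (h3 : q % 3 = 0) (hm : 4 * m = q + 1) (hr : r.Prime) (hrm : r ∣ m)
    (hk : 0 < k) (hrk : r ∣ 2 ^ k - 1) : 2 ^ 4 < 4 * 2 ^ k := by
  have h3k : 3 ≤ k := by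
    by_contra hlt
    have hk12 : k = 1 ∨ k = 2 := by omega
    rcases hk12 with rfl | rfl
    · have h1 : r ∣ 1 := by simpa using hrk
      exact hr.one_lt.ne' (Nat.dvd_one.1 h1)
    · have h1 : r ∣ 3 := by simpa using hrk
      have h2 : r = 3 := (Nat.prime_dvd_prime_iff_eq hr Nat.prime_three).1 h1
      rw [h2] at hrm
      omega
  have h4 : 2 ^ 3 ≤ 2 ^ k := Nat.pow_le_pow_right (by norm_num) h3k
  omega

theorem good_psl {F : Type*} [Field F] [Fintype F] {n : ℕ} (hn : 1 ≤ n)
    (hF : Fintype.card F = 3 ^ (2 * n + 1)) :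
    H33.GF.Good (Matrix.ProjectiveSpecialLinearGroup (Fin 2) F) := by
  have hfin : Finite PSL(2, F) := finite_psl
  obtain ⟨h27, h8, h3⟩ := q_facts hn hF
  rw [← Nat.card_eq_fintype_card] at h27 h8 h3
  intro T A hAT hAc hA2 hA
  have : Fact (Nat.Prime 2) := ⟨Nat.prime_two⟩
  have hT4 : Nat.card T = 4 := by
    obtain ⟨e1, e2⟩ := card_div (F := F) h8
    rw [Sylow.card_eq_multiplicity]
    have h5 : 2 ≤ (Nat.card PSL(2, F)).factorization 2 :=
      (Nat.prime_two.pow_dvd_iff_le_factorization Nat.card_pos.ne').1 (by simpa using e1)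
    have h6 : ¬ 3 ≤ (Nat.card PSL(2, F)).factorization 2 := by
      intro h
      exact e2 (by simpa using (Nat.prime_two.pow_dvd_iff_le_factorization Nat.card_pos.ne').2 h)
    have h7 : (Nat.card PSL(2, F)).factorization 2 = 2 := by omega
    show 2 ^ (Nat.card PSL(2, F)).factorization 2 = 4
    rw [h7]; norm_num
  have hT : IsKleinFour (T : Subgroup PSL(2, F)) := by
    have hsq : ∀ x : (T : Subgroup PSL(2, F)), x ^ 2 = 1 := by
      intro x
      have h4 : x ^ 4 = 1 := by rw [← hT4]; exact pow_card_eq_one'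
      have h5 : (x : PSL(2, F)) ^ 4 = 1 := congrArg (fun z : (T : Subgroup PSL(2, F)) => (z : PSL(2, F))) h4
      have h6 := sq_of_four h8 h5
      apply Subtype.ext
      rw [← sq] at h6; exact h6
    refine ⟨hT4, ?_⟩
    have h1 : Monoid.exponent T ∣ 2 := Monoid.exponent_dvd_of_forall_pow_eq_one hsq
    rcases (Nat.dvd_prime Nat.prime_two).1 h1 with h2 | h2
    · exfalso
      have h3 := Monoid.exp_eq_one_iff.1 h2
      have : Nat.card T = 1 := Nat.card_eq_one_iff_unique.2 ⟨h3, ⟨1⟩⟩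
      omega
    · exact h2
  obtain ⟨⟨a, haA⟩, ha1⟩ := A.ne_bot_iff_exists_ne_one.1 hA
  have ha1 : a ≠ 1 := fun h => ha1 (Subtype.ext h)
  obtain ⟨b, hbT, hb1, hab⟩ : ∃ b ∈ (T : Subgroup PSL(2, F)), b ≠ 1 ∧ a ≠ b := by
    by_contra hcon
    push Not at hcon
    have h1 : ((T : Subgroup PSL(2, F)) : Set PSL(2, F)) ⊆ {1, a} := by
      intro t ht
      by_cases ht1 : t = 1
      · left; exact ht1
      · right; exact (hcon t ht ht1).symm
    have h2 := Set.ncard_le_ncard h1 (Set.toFinite _)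
    have h4 : ((T : Subgroup PSL(2, F)) : Set PSL(2, F)).ncard = 4 := by
      rw [← Nat.card_coe_set_eq]; exact hT4
    have h5 := Set.ncard_insert_le (1 : PSL(2, F)) {a}
    rw [Set.ncard_singleton] at h5
    omega
  have haT : a ∈ (T : Subgroup PSL(2, F)) := hAT haA
  obtain ⟨x, hx, hax, hbx, hgen⟩ := core h3 h8 h27 hT haT hbT ha1 hb1 hab
  have hx1 : x ≠ 1 := by
    rintro rfl
    rw [orderOf_one] at hx
    omega
  have hxo : Odd (orderOf x) := by rw [Nat.odd_iff]; omega
  obtain ⟨B, hBA, hBc, hBi⟩ : ∃ B ≤ A, (∀ c ∈ B, c * x = x * c) ∧ B.relIndex A = 2 := by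
    by_cases hAT' : A = (T : Subgroup PSL(2, F))
    · refine ⟨zpowers b, ?_, ?_, ?_⟩
      · rw [zpowers_le, hAT']; exact hbT
      · intro c hc
        obtain ⟨k, rfl⟩ := mem_zpowers_iff.1 hc
        exact ((show Commute b x from hbx).zpow_left k)
      · have h5 : zpowers b ≤ A := by rw [zpowers_le, hAT']; exact hbT
        have h6 := Subgroup.relIndex_mul_relIndex ⊥ (zpowers b) A bot_le h5
        rw [Subgroup.relIndex_bot_left, Subgroup.relIndex_bot_left] at h6
        have hbb : b * b = 1 := by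
          have h5 := Monoid.pow_exponent_eq_one (⟨b, hbT⟩ : (T : Subgroup PSL(2, F)))
          rw [hT.exponent_two] at h5
          rw [← sq]; exact congrArg (fun z : (T : Subgroup PSL(2, F)) => (z : PSL(2, F))) h5
        have ob : orderOf b = 2 := orderOf_eq_prime (by rw [sq, hbb]) hb1
        rw [Nat.card_zpowers, ob, hAT'] at h6
        rw [hAT']
        have h7 : Nat.card (T : Subgroup PSL(2, F)) = 4 := hT4
        rw [h7] at h6
        omega
    · refine ⟨⊥, bot_le, ?_, ?_⟩
      · intro c hc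
        rw [Subgroup.mem_bot] at hc
        rw [hc, one_mul, mul_one]
      · rw [Subgroup.relIndex_bot_left]
        have h7 : Nat.card (T : Subgroup PSL(2, F)) = 4 := hT4
        obtain ⟨c, hc⟩ := Subgroup.card_dvd_of_le hAT
        rw [h7] at hc
        have h8 : 1 < Nat.card A := (Subgroup.one_lt_card_iff_ne_bot A).2 hA
        have h9 : Nat.card A ≠ 4 := by
          intro h
          apply hAT'
          exact Subgroup.eq_of_le_of_card_ge hAT (by rw [h, h7])
        have h10 : Nat.card A ≤ 4 := Nat.le_of_dvd (by norm_num) ⟨c, hc⟩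
        have h11 : Nat.card A = 2 ∨ Nat.card A = 3 := by omega
        rcases h11 with h | h
        · exact h
        · rw [h] at hc; omega
  refine ⟨B, hBA, a, haA, x, hx1, hxo, hax, hBc, ?_, hgen⟩
  intro r k hr hrx hk hrk
  rw [hBi]
  exact cond h3 hx hr hrx hk hrk

end Cfsg.Agent.H14.GFP
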