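import Mathlib
import Cfsg.Agent.H33.GF0
import Cfsg.Agent.H62.W2
import Cfsg.Agent.AutPSL.Struct

/-! 2-elements act on a normal `PSL₂(3^(2n+1))` like inner automorphisms when `Sym(3)` is not involved. -/

set_option autoImplicit false

namespace Cfsg.Agent.H14.GFP

open Matrix Subgroup
open scoped MatrixGroups Pointwise
open AutPSL

universe u v

/-- conjugation on a normal subgroup transported along an isomorphism -/
noncomputable def trans {Y L : Type*} [Group Y] [Group L] (K : Subgroup Y) [K.Normal] (e : K ≃* L) :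
    Y →* MulAut L :=
  (MulAut.congr e).toMonoidHom.comp (MulAut.conjNormal (H := K))

theorem trans_apply {Y L : Type*} [Group Y] [Group L] (K : Subgroup Y) [K.Normal] (e : K ≃* L)
    (a : Y) (x : K) : ((e.symm (trans K e a (e x)) : K) : Y) = a * x * a⁻¹ := by
  have h1 : trans K e a (e x) = e (MulAut.conjNormal a x) := by
    show e (MulAut.conjNormal a (e.symm (e x))) = _
    rw [e.symm_apply_apply]
  rw [h1, e.symm_apply_apply, MulAut.conjNormal_apply]

section mat

variable {F : Type*} [Field F]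

/-- upper unitriangular -/
def uM (a : F) : Matrix.SpecialLinearGroup (Fin 2) F := ⟨!![1, a; 0, 1], by simp [Matrix.det_fin_two_of]⟩

theorem uM_add (a b : F) : uM (a + b) = uM a * uM b := by
  apply Subtype.ext
  rw [Matrix.SpecialLinearGroup.coe_mul]
  show !![1, a + b; 0, 1] = !![1, a; 0, 1] * !![1, b; 0, 1]
  ext i j
  fin_cases i <;> fin_cases j <;> simp [Matrix.mul_apply, Fin.sum_univ_two, add_comm]

theorem uM_zero : uM (0 : F) = 1 := by
  apply Subtype.ext
  ext i j
  fin_cases i <;> fin_cases j <;> simp [uM]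

theorem uM_neg (a : F) : uM (-a) = (uM a)⁻¹ := by
  rw [eq_inv_iff_mul_eq_one, ← uM_add, neg_add_cancel, uM_zero]

theorem toPSL_uM_ne (a : F) (ha : a ≠ 0) : toPSL (uM a) ≠ 1 := by
  intro h
  have h1 : uM a ∈ Subgroup.center (Matrix.SpecialLinearGroup (Fin 2) F) := by
    rwa [← QuotientGroup.eq_one_iff]
  rw [Matrix.SpecialLinearGroup.mem_center_iff] at h1
  obtain ⟨r, -, hr⟩ := h1
  have h2 := congrFun (congrFun hr 0) 1
  simp [uM, Matrix.scalar_apply] at h2
  exact ha h2.symm

/-- `diag(-1, 1)` -/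
def dM (F : Type*) [Field F] : GL (Fin 2) F :=
  Matrix.GeneralLinearGroup.mkOfDetNeZero !![-1, 0; 0, 1] (by simp [Matrix.det_fin_two_of])

theorem dM_conj (a : F) : conjSL (dM F) (uM a) = uM (-a) := by
  apply Subtype.ext
  rw [coe_conjSL]
  have h1 : (dM F : Matrix (Fin 2) (Fin 2) F) * (uM a : Matrix (Fin 2) (Fin 2) F) =
      (uM (-a) : Matrix (Fin 2) (Fin 2) F) * (dM F : Matrix (Fin 2) (Fin 2) F) := by
    show !![-1, 0; 0, 1] * !![1, a; 0, 1] = !![1, -a; 0, 1] * !![-1, 0; 0, 1]
    ext i j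
    fin_cases i <;> fin_cases j <;> simp [Matrix.mul_apply, Fin.sum_univ_two]
  rw [h1, Matrix.mul_assoc, ← Units.val_mul, mul_inv_cancel, Units.val_one, Matrix.mul_one]

end mat

theorem innerTwo_psl {F : Type v} [Field F] [Fintype F] {n : ℕ}
    (hF : Fintype.card F = 3 ^ (2 * n + 1)) :
    H33.GF.InnerTwo.{u, v} (Matrix.ProjectiveSpecialLinearGroup (Fin 2) F) := by
  intro Y _ _ K hK ⟨e⟩ hS3 a ⟨k, hak⟩
  have : Fact (Nat.Prime 3) := ⟨Nat.prime_three⟩
  set Φ := (MonoidHom.fst _ _).comp (typeHom (F := F) (n := 2) le_rfl) with hΦ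
  obtain ⟨-, hcard⟩ := ringAut_cyclic_card F hF
  have hfinR : Finite (RingAut F) := Nat.finite_of_card_ne_zero (by rw [hcard]; omega)
  have hker : Φ (trans K e a) = 1 := by
    have h1 : Φ (trans K e a) ^ (2 ^ k) = 1 := by rw [← map_pow, ← map_pow, hak, map_one, map_one]
    have h2 : Φ (trans K e a) ^ (2 * n + 1) = 1 := by
      rw [← hcard]; exact pow_card_eq_one'
    have h3 : Nat.Coprime (2 ^ k) (2 * n + 1) := by
      apply Nat.Coprime.pow_left
      rw [Nat.coprime_two_left]; exact ⟨n, rfl⟩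
    have h4 := Nat.dvd_gcd (orderOf_dvd_of_pow_eq_one h1) (orderOf_dvd_of_pow_eq_one h2)
    rw [h3.gcd_eq_one] at h4
    exact orderOf_eq_one_iff.1 (Nat.dvd_one.1 h4)
  obtain ⟨g, hg⟩ := (mem_ker_fst_typeHom_two (F := F) (trans K e a)).1 (MonoidHom.mem_ker.2 hker)
  have hinn : ∀ h : GL (Fin 2) F, (∃ c : Fˣ, Matrix.GeneralLinearGroup.det h = c ^ 2) →
      ∃ l ∈ K, ∀ x ∈ K, ∀ y : Y, (∀ z : K, (e.symm ((diagHom 2 F h) (e z)) : Y) = y * z * y⁻¹) →
        y * x * y⁻¹ = l * x * l⁻¹ := by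
    intro h hc
    obtain ⟨t, ht⟩ := (diagHom_mem_inn (F := F) (n := 2) le_rfl h).2 hc
    refine ⟨e.symm t, (e.symm t).2, ?_⟩
    intro x hx y hy
    rw [← hy ⟨x, hx⟩, ← ht, MulAut.conj_apply]
    simp
  have hga : ∀ z : K, (e.symm ((diagHom 2 F g) (e z)) : Y) = a * z * a⁻¹ := by
    intro z
    rw [diagHom_apply, ← hg, trans_apply]
  by_cases hsq : ∃ c : Fˣ, Matrix.GeneralLinearGroup.det g = c ^ 2
  · obtain ⟨l, hl, h⟩ := hinn g hsq
    exact ⟨l, hl, fun x hx => h x hx a hga⟩
  · exfalso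
    apply hS3
    -- `det (d g⁻¹)` is a square
    have hsq2 : ∃ c : Fˣ, Matrix.GeneralLinearGroup.det (dM F * g⁻¹) = c ^ 2 := by
      have h4 : Fintype.card F % 4 = 3 := by
        rw [hF, pow_succ, pow_mul, Nat.mul_mod, Nat.pow_mod]; simp
      have hm1 : ¬ IsSquare (-1 : F) := by
        rw [FiniteField.isSquare_neg_one_iff]
        intro h; exact h h4
      have hg1 : ¬ IsSquare ((Matrix.GeneralLinearGroup.det g : Fˣ) : F) := by
        rintro ⟨r, hr⟩
        have hr0 : r ≠ 0 := by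
          rintro rfl
          rw [mul_zero] at hr
          exact Units.ne_zero _ hr
        exact hsq ⟨Units.mk0 r hr0, by
          apply Units.ext
          rw [Units.val_pow_eq_pow_val, Units.val_mk0, hr, sq]⟩
      have hchar : ringChar F ≠ 2 := by
        intro h
        have h5 := FiniteField.even_card_of_char_two h
        omega
      have hs : IsSquare (-1 * ((Matrix.GeneralLinearGroup.det g : Fˣ) : F)) := by
        classical
        rw [← quadraticChar_one_iff_isSquare (mul_ne_zero (neg_ne_zero.2 one_ne_zero)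
          (Units.ne_zero _)), map_mul, quadraticChar_neg_one_iff_not_isSquare.2 hm1,
          quadraticChar_neg_one_iff_not_isSquare.2 hg1]
        norm_num
      obtain ⟨r, hr⟩ := hs
      have hr0 : r ≠ 0 := by
        rintro rfl
        rw [mul_zero] at hr
        exact (mul_ne_zero (neg_ne_zero.2 one_ne_zero) (Units.ne_zero _)) hr
      refine ⟨(Units.mk0 r hr0)⁻¹, ?_⟩
      have h6 : Matrix.GeneralLinearGroup.det (dM F) = -1 := by
        apply Units.ext
        show Matrix.det !![-1, 0; 0, 1] = _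
        simp [Matrix.det_fin_two_of]
      rw [map_mul, h6, map_inv, inv_pow, eq_inv_iff_mul_eq_one, mul_assoc]
      have h7 : (Units.mk0 r hr0) ^ 2 = -Matrix.GeneralLinearGroup.det g := by
        apply Units.ext
        rw [Units.val_pow_eq_pow_val, Units.val_mk0, sq, ← hr]
        simp
      rw [h7]
      simp
    obtain ⟨t, ht⟩ := (diagHom_mem_inn (F := F) (n := 2) le_rfl (dM F * g⁻¹)).2 hsq2
    have hy : ∀ z : K, (e.symm ((diagHom 2 F (dM F)) (e z)) : Y) =
        ((e.symm t : Y) * a) * z * ((e.symm t : Y) * a)⁻¹ := by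
      intro z
      have h1 : diagHom 2 F (dM F) = diagHom 2 F (dM F * g⁻¹) * diagHom 2 F g := by
        rw [← map_mul, inv_mul_cancel_right]
      rw [h1, ← ht, MulAut.mul_apply, MulAut.conj_apply]
      have h2 : e ((e.symm ((diagHom 2 F g) (e z)))) = (diagHom 2 F g) (e z) :=
        e.apply_symm_apply _
      rw [map_mul, map_mul, map_inv, Subgroup.coe_mul, Subgroup.coe_mul, hga, Subgroup.coe_inv]
      group
    set y : Y := (e.symm t : Y) * a with hyd
    set w : Y := (e.symm (toPSL (uM (1 : F))) : Y) with hw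
    have hw3 : w ^ 3 = 1 := by
      have h1 : (uM (1 : F)) ^ 3 = 1 := by
        rw [pow_succ, pow_two, ← uM_add, ← uM_add]
        have h2 : (1 + 1 + 1 : F) = 0 := by
          have h3 : ((3 : ℕ) : F) = 0 := by
            have h4 : ((Fintype.card F : ℕ) : F) = 0 := Nat.cast_card_eq_zero F
            rw [hF, Nat.cast_pow] at h4
            exact pow_eq_zero_iff (by omega) |>.1 h4
          rw [← h3]; norm_num
        rw [h2, uM_zero]
      rw [hw, ← Subgroup.coe_pow, ← map_pow, ← map_pow, h1, map_one, map_one, Subgroup.coe_one]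
    have hw1 : w ≠ 1 := by
      intro h
      have h1 : e.symm (toPSL (uM (1 : F))) = 1 := Subtype.ext h
      rw [map_eq_one_iff e.symm e.symm.injective] at h1
      exact toPSL_uM_ne 1 one_ne_zero h1
    have hyw : y * w * y⁻¹ = w⁻¹ := by
      have h1 := hy (e.symm (toPSL (uM (1 : F))))
      rw [e.apply_symm_apply, diagHom_apply, cAut_toPSL] at h1
      have h2 : mapSL (RingEquiv.refl F) (uM (1 : F)) = uM 1 := by
        apply Subtype.ext; ext i j; rfl
      rw [h2, dM_conj, uM_neg, map_inv, map_inv] at h1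
      rw [← h1, Subgroup.coe_inv]
    obtain ⟨i, m, hm, hym⟩ := Nat.exists_eq_two_pow_mul_odd (n := orderOf y) (orderOf_pos y).ne'
    refine H62.involves_S3_of_inverted (x := y ^ m) (y := w) ⟨i, ?_⟩ hw3 hw1 ?_
    · rw [orderOf_pow' y (by rintro rfl; simp at hm), hym]
      rw [Nat.gcd_eq_right (Dvd.intro_left _ rfl), Nat.mul_div_cancel]
      exact hm.pos
    · obtain ⟨c, rfl⟩ := hm
      have h2 : y ^ 2 * w * (y ^ 2)⁻¹ = w := by
        calc y ^ 2 * w * (y ^ 2)⁻¹ = y * (y * w * y⁻¹) * y⁻¹ := by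
              rw [sq]; simp only [_root_.mul_inv_rev, mul_assoc]
          _ = y * w⁻¹ * y⁻¹ := by rw [hyw]
          _ = (y * w * y⁻¹)⁻¹ := by simp only [_root_.mul_inv_rev, mul_assoc, inv_inv]
          _ = w := by rw [hyw, inv_inv]
      have h3 : Commute (y ^ 2) w := by
        show y ^ 2 * w = w * y ^ 2
        rw [← mul_inv_eq_iff_eq_mul]; exact h2
      have h4 : Commute (y ^ (2 * c)) w := by rw [pow_mul]; exact h3.pow_left c
      rw [pow_succ']
      calc y * y ^ (2 * c) * w * (y * y ^ (2 * c))⁻¹ =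
          y * (y ^ (2 * c) * w) * (y ^ (2 * c))⁻¹ * y⁻¹ := by group
        _ = y * w * y⁻¹ := by rw [h4.eq]; group
        _ = w⁻¹ := hyw

end Cfsg.Agent.H14.GFP
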