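import Cfsg.Agent.H14.Transport
import Cfsg.Agent.H14.Refl
import Cfsg.Agent.OrthCount.Orders

/-! `O₆⁺(2)` and the heart of the permutation module of `S₈`. -/

set_option autoImplicit false

open Cfsg

namespace Cfsg.Agent.H14.O62

open Matrix Cfsg.Agent.H14.Ortho Cfsg.Agent.H14.Transport

abbrev K := ZMod 2
abbrev J := Fin 3 ⊕ Fin 3

/-- vector from coordinates -/
def vec (x y z u v w : K) : J → K := Sum.elim ![x, y, z] ![u, v, w]

theorem vec_eta (v : J → K) : v = vec (v (.inl 0)) (v (.inl 1)) (v (.inl 2)) (v (.inr 0)) (v (.inr 1))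
    (v (.inr 2)) := by
  funext j
  rcases j with j | j <;> fin_cases j <;> rfl

theorem fin8_eta (x : Fin 8 → K) : x = ![x 0, x 1, x 2, x 3, x 4, x 5, x 6, x 7] := by
  funext j
  fin_cases j <;> rfl

def QK : (J → K) → K := fun v => v (.inl 0) * v (.inr 0) + v (.inl 1) * v (.inr 1) + v (.inl 2) * v (.inr 2)

/-- images of the unit vectors -/
def W : Fin 8 → (J → K) := ![vec 0 0 1 0 0 1, vec 0 1 0 0 1 1, vec 0 1 1 1 1 0, vec 1 0 0 1 1 1,
  vec 1 0 1 1 0 0, vec 1 1 0 1 0 1, vec 1 1 1 0 1 0, vec 0 0 0 0 0 0]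

/-- even preimages of the unit vectors -/
def T : J → (Fin 8 → K) := Sum.elim ![![0, 0, 1, 1, 1, 1, 0, 0], ![0, 1, 1, 1, 0, 0, 1, 0],
  ![0, 0, 1, 0, 1, 0, 1, 1]] ![![0, 0, 0, 1, 1, 1, 1, 0], ![0, 1, 1, 0, 0, 1, 1, 0],
  ![0, 1, 0, 1, 0, 1, 0, 1]]

def L (x : Fin 8 → K) : J → K := fun a => ∑ i, x i * W i a

def S (v : J → K) : Fin 8 → K := fun i => ∑ b, v b * T b i

/-- weight modulo four -/
def wt (x : Fin 8 → K) : K := if (Finset.univ.filter fun i => x i = 1).card % 4 = 2 then 1 else 0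

theorem LS' : ∀ a b c d e f : K, L (S (vec a b c d e f)) = vec a b c d e f := by decide +kernel

theorem even_S' : ∀ a b c d e f : K, ∑ i, S (vec a b c d e f) i = 0 := by decide +kernel

theorem SL' : ∀ a b c d e f g h : K, ∑ i, ![a, b, c, d, e, f, g, h] i = 0 →
    S (L ![a, b, c, d, e, f, g, h]) = ![a, b, c, d, e, f, g, h] ∨
    S (L ![a, b, c, d, e, f, g, h]) = fun i => ![a, b, c, d, e, f, g, h] i + 1 := by decide +kernel

theorem QL' : ∀ a b c d e f g h : K, ∑ i, ![a, b, c, d, e, f, g, h] i = 0 →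
    QK (L ![a, b, c, d, e, f, g, h]) = wt ![a, b, c, d, e, f, g, h] := by decide +kernel

theorem sumW : ∀ a : J, ∑ i, W i a = 0 := by decide +kernel

theorem W_pair : ∀ i j k l : Fin 8, i ≠ j → W i + W j = W k + W l → (i = k ∧ j = l) ∨ (i = l ∧ j = k) := by
  decide +kernel

theorem LS (v : J → K) : L (S v) = v := by
  rw [vec_eta v]; exact LS' _ _ _ _ _ _

theorem even_S (v : J → K) : ∑ i, S v i = 0 := by
  rw [vec_eta v]; exact even_S' _ _ _ _ _ _

theorem SL (x : Fin 8 → K) (hx : ∑ i, x i = 0) : S (L x) = x ∨ S (L x) = fun i => x i + 1 := by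
  rw [fin8_eta x] at hx ⊢; exact SL' _ _ _ _ _ _ _ _ hx

theorem QL (x : Fin 8 → K) (hx : ∑ i, x i = 0) : QK (L x) = wt x := by
  rw [fin8_eta x] at hx ⊢; exact QL' _ _ _ _ _ _ _ _ hx

theorem L_add (x y : Fin 8 → K) : L (fun i => x i + y i) = L x + L y := by
  funext a
  simp only [L, Pi.add_apply, add_mul, Finset.sum_add_distrib]

theorem L_one (x : Fin 8 → K) : L (fun i => x i + 1) = L x := by
  have h : L (fun _ => (1 : K)) = 0 := by
    funext a
    simp only [L, one_mul]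
    exact sumW a
  rw [L_add x fun _ => 1, h, add_zero]

/-- permutation action -/
def act (σ : Equiv.Perm (Fin 8)) (x : Fin 8 → K) : Fin 8 → K := fun i => x (σ⁻¹ i)

theorem act_act (σ τ : Equiv.Perm (Fin 8)) (x : Fin 8 → K) : act σ (act τ x) = act (σ * τ) x := by
  funext i
  simp [act, _root_.mul_inv_rev]

theorem act_one (x : Fin 8 → K) : act 1 x = x := rfl

theorem act_even (σ : Equiv.Perm (Fin 8)) (x : Fin 8 → K) : ∑ i, act σ x i = ∑ i, x i :=
  Equiv.sum_comp σ⁻¹ x

theorem wt_act (σ : Equiv.Perm (Fin 8)) (x : Fin 8 → K) : wt (act σ x) = wt x := by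
  have h : (Finset.univ.filter fun i => act σ x i = 1) =
      (Finset.univ.filter fun i => x i = 1).map σ.toEmbedding := by
    ext i
    rw [Finset.mem_map]
    constructor
    · intro h
      rw [Finset.mem_filter] at h
      exact ⟨σ⁻¹ i, Finset.mem_filter.2 ⟨Finset.mem_univ _, h.2⟩, by simp⟩
    · rintro ⟨j, hj, rfl⟩
      rw [Finset.mem_filter] at hj
      refine Finset.mem_filter.2 ⟨Finset.mem_univ _, ?_⟩
      show x (σ⁻¹ (σ j)) = 1
      have h2 : σ⁻¹ (σ j) = j := by simp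
      rw [h2]; exact hj.2
  unfold wt
  rw [h, Finset.card_map]

/-- the matrix of a permutation -/
def M (σ : Equiv.Perm (Fin 8)) : Matrix J J K := Matrix.of fun a b => L (act σ (T b)) a

theorem M_mulVec (σ : Equiv.Perm (Fin 8)) (v : J → K) : M σ *ᵥ v = L (act σ (S v)) := by
  funext a
  simp only [Matrix.mulVec, dotProduct, M, Matrix.of_apply, L, act, S, Finset.sum_mul]
  rw [Finset.sum_comm]
  refine Finset.sum_congr rfl fun i _ => Finset.sum_congr rfl fun b _ => ?_
  ring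

theorem M_L (σ : Equiv.Perm (Fin 8)) (x : Fin 8 → K) (hx : ∑ i, x i = 0) :
    M σ *ᵥ L x = L (act σ x) := by
  rw [M_mulVec]
  rcases SL x hx with h | h
  · rw [h]
  · rw [h]
    exact L_one (act σ x)

theorem M_mul (σ τ : Equiv.Perm (Fin 8)) : M σ * M τ = M (σ * τ) := by
  apply ext_mulVec
  intro v
  rw [← mulVec_mulVec, M_mulVec τ, M_L σ _ (by rw [act_even, even_S]), act_act, ← M_mulVec]

theorem M_one : M 1 = 1 := by
  apply ext_mulVec
  intro v
  rw [M_mulVec, act_one, LS, one_mulVec]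

theorem Q_M (σ : Equiv.Perm (Fin 8)) (v : J → K) : QK (M σ *ᵥ v) = QK v := by
  rw [M_mulVec, QL _ (by rw [act_even, even_S]), wt_act, ← QL _ (even_S v), LS]

/-- the homomorphism -/
noncomputable def Phi : Equiv.Perm (Fin 8) →* ↥(Cfsg.isometryGroup K QK) where
  toFun σ := ⟨⟨M σ, M σ⁻¹, by rw [M_mul, mul_inv_cancel, M_one],
    by rw [M_mul, inv_mul_cancel, M_one]⟩, mem_isometryGroup.2 (Q_M σ)⟩
  map_one' := Subtype.ext (Units.ext M_one)
  map_mul' σ τ := Subtype.ext (Units.ext (M_mul σ τ).symm)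

theorem Phi_injective : Function.Injective Phi := by
  rw [injective_iff_map_eq_one]
  intro σ hσ
  have hM : M σ = 1 := congrArg (fun g : ↥(Cfsg.isometryGroup K QK) =>
    ((g : GeneralLinearGroup J K) : Matrix J J K)) hσ
  have hL : ∀ i j : Fin 8, L (fun k => (Pi.single i 1 : Fin 8 → K) k + (Pi.single j 1 : Fin 8 → K) k) =
      W i + W j := by
    intro i j
    rw [L_add]
    congr 1 <;>
    · funext a
      simp [L, Pi.single_apply]
  have hact : ∀ i : Fin 8, act σ (Pi.single i 1 : Fin 8 → K) = Pi.single (σ i) 1 := by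
    intro i
    funext k
    simp only [act, Pi.single_apply]
    have : σ⁻¹ k = i ↔ k = σ i := by
      constructor
      · rintro rfl; simp
      · rintro rfl; simp
    simp only [this]
  have key : ∀ i j : Fin 8, i ≠ j → (i = σ i ∧ j = σ j) ∨ (i = σ j ∧ j = σ i) := by
    intro i j hij
    apply W_pair i j _ _ hij
    have h1 := M_L σ (fun k => (Pi.single i 1 : Fin 8 → K) k + (Pi.single j 1 : Fin 8 → K) k) (by
      rw [Finset.sum_add_distrib]
      simp
      decide)
    rw [hM, one_mulVec, hL] at h1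
    rw [h1]
    have h2 : act σ (fun k => (Pi.single i 1 : Fin 8 → K) k + (Pi.single j 1 : Fin 8 → K) k) =
        fun k => (Pi.single (σ i) 1 : Fin 8 → K) k + (Pi.single (σ j) 1 : Fin 8 → K) k := by
      rw [← hact, ← hact]; rfl
    rw [h2, hL]
  apply Equiv.ext
  intro i
  by_contra hne
  have hne' : σ i ≠ i := hne
  obtain ⟨j, hj1, hj2⟩ : ∃ j : Fin 8, j ≠ i ∧ j ≠ σ i := by
    have : ∀ a b : Fin 8, ∃ j, j ≠ a ∧ j ≠ b := by decide
    exact this _ _
  rcases key i j hj1.symm with ⟨h, -⟩ | ⟨-, h⟩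
  · exact hne' h.symm
  · exact hj2 h

theorem card_eq : Nat.card (Equiv.Perm (Fin 8)) = Nat.card ↥(Cfsg.isometryGroup K QK) := by
  have h : QK = Cfsg.quadFormPlus 3 K := by
    funext v
    simp [QK, Cfsg.quadFormPlus, Fin.sum_univ_three]
  rw [h, OrthCount.order_plus 3 (by norm_num), Nat.card_eq_fintype_card, Fintype.card_perm,
    Nat.card_eq_fintype_card (α := K), ZMod.card]
  simp [Finset.prod_range_succ]
  decide

theorem Phi_bijective : Function.Bijective Phi := by
  have hfin : Finite ↥(Cfsg.isometryGroup K QK) :=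
    Nat.finite_of_card_ne_zero (by rw [← card_eq]; exact Nat.card_pos.ne')
  exact (Nat.bijective_iff_injective_and_card Phi).2 ⟨Phi_injective, card_eq⟩

theorem row {F : Type*} [Field F] [Fintype F] (hF : Fintype.card F = 2) :
    Nonempty (↥(Cfsg.isometryGroup F (Cfsg.quadFormPlus 3 F)) ≃* Equiv.Perm (Fin 8)) := by
  let e : F ≃+* K := (ZMod.ringEquivOfPrime F Nat.prime_two hF).symm
  have h : ∀ v, e (Cfsg.quadFormPlus 3 F v) = QK (fun i => e (v i)) := by
    intro v
    simp [Cfsg.quadFormPlus, QK, Fin.sum_univ_three]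
  exact ⟨(isometryEquiv e _ _ h).trans (MulEquiv.ofBijective Phi Phi_bijective).symm⟩

end Cfsg.Agent.H14.O62
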