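import Cfsg.Agent.ClassO.Card
import Cfsg.Agent.Orth.OrthList

/-! Involutions of `Ω_{2m+1}(q)`, `q` odd : at least `m` classes. -/

set_option autoImplicit false

namespace Cfsg.Agent.H14.OmInv

open QuadraticMap Module Cfsg.Agent.Orth Cfsg.Agent.ClassO

variable {F V : Type*} [Field F] [AddCommGroup V] [Module F V]

/-- dimension of the commutator space `[V, g]`. -/
noncomputable def rk (g : V ≃ₗ[F] V) : ℕ :=
  finrank F (LinearMap.range ((g : V →ₗ[F] V) - LinearMap.id))

theorem rk_conj (g h : V ≃ₗ[F] V) : rk (h * g * h⁻¹) = rk g := by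
  unfold rk
  have h1 : LinearMap.range (((h * g * h⁻¹ : V ≃ₗ[F] V) : V →ₗ[F] V) - LinearMap.id) =
      (LinearMap.range ((g : V →ₗ[F] V) - LinearMap.id)).map (h : V →ₗ[F] V) := by
    ext y
    simp only [LinearMap.mem_range, Submodule.mem_map]
    constructor
    · rintro ⟨x, rfl⟩
      refine ⟨_, ⟨h⁻¹ x, rfl⟩, ?_⟩
      simp only [LinearMap.sub_apply, LinearMap.id_apply, LinearEquiv.coe_coe, map_sub]
      change h (g (h⁻¹ x)) - h (h⁻¹ x) = h (g (h⁻¹ x)) - x
      congr 1
      exact LinearEquiv.apply_symm_apply h x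
    · rintro ⟨_, ⟨x, rfl⟩, rfl⟩
      refine ⟨h x, ?_⟩
      simp only [LinearMap.sub_apply, LinearMap.id_apply, LinearEquiv.coe_coe, map_sub]
      change h (g (h⁻¹ (h x))) - h x = h (g x) - h x
      congr 3
      exact LinearEquiv.symm_apply_apply h x
  rw [h1]
  exact LinearEquiv.finrank_map_eq h _

theorem exists_invols [Finite F] [FiniteDimensional F V] {Q : QuadraticForm F V}
    (hQ : (polarBilin Q).Nondegenerate) (h2 : (2 : F) ≠ 0) (m : ℕ) (hm : 2 * m < finrank F V)
    (k : ℕ) (hk : k ≤ m) :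
    ∃ t ∈ commutator (OGrp Q), t * t = 1 ∧ rk (t : V ≃ₗ[F] V) = 2 * k := by
  classical
  obtain ⟨u, hu, hu1⟩ := exists_isOrth_one hQ h2 (2 * m) hm
  set s : Finset (Fin (2 * m)) := Finset.univ.filter (fun i => (i : ℕ) < 2 * k) with hs
  have hcard : s.card = 2 * k := by
    rw [hs, Fin.card_filter_val_lt]; omega
  obtain ⟨l, hl1, hl2, hl3⟩ := hu.exists_list s
  have hact : ∀ v, (reflProd Q l : V ≃ₗ[F] V) v = v - ∑ i ∈ s, (polar Q v (u i)) • u i := by
    intro v
    rw [hl3]
    congr 1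
    refine Finset.sum_congr rfl fun i _ => ?_
    rw [hu1, inv_one, one_mul]
  have huj : ∀ j ∈ s, (reflProd Q l : V ≃ₗ[F] V) (u j) = - u j := by
    intro j hj
    rw [hact, Finset.sum_eq_single j]
    · rw [pself, hu1, mul_one]; module
    · intro i _ hij
      rw [hu.p _ _ (Ne.symm hij), zero_smul]
    · intro h; exact absurd hj h
  refine ⟨reflProd Q l, ?_, ?_, ?_⟩
  · apply reflProd_mem_commutator hQ
    · rw [hl1, hcard]; exact ⟨k, by ring⟩
    · rw [hl2]
      refine ⟨1, ?_⟩
      rw [Finset.prod_eq_one (fun i _ => hu1 i), one_mul]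
  · refine OGrp_ext fun v => ?_
    change (reflProd Q l : V ≃ₗ[F] V) ((reflProd Q l : V ≃ₗ[F] V) v) = v
    conv_lhs => rw [hact v]
    rw [map_sub, map_sum]
    have h3 : ∑ i ∈ s, (reflProd Q l : V ≃ₗ[F] V) (polar Q v (u i) • u i) =
        - ∑ i ∈ s, polar Q v (u i) • u i := by
      rw [← Finset.sum_neg_distrib]
      refine Finset.sum_congr rfl fun i hi => ?_
      rw [map_smul, huj i hi, smul_neg]
    rw [h3, hact v]
    abel
  · unfold rk
    have h3 : LinearMap.range (((reflProd Q l : V ≃ₗ[F] V) : V →ₗ[F] V) - LinearMap.id) =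
        Submodule.span F (Set.range (fun i : s => u i)) := by
      apply le_antisymm
      · rintro _ ⟨v, rfl⟩
        rw [LinearMap.sub_apply, LinearMap.id_apply, LinearEquiv.coe_coe, hact]
        have : v - ∑ i ∈ s, polar Q v (u i) • u i - v = - ∑ i ∈ s, polar Q v (u i) • u i := by abel
        rw [this]
        refine Submodule.neg_mem _ (Submodule.sum_mem _ fun i hi => Submodule.smul_mem _ _ ?_)
        exact Submodule.subset_span ⟨⟨i, hi⟩, rfl⟩
      · rw [Submodule.span_le]
        rintro _ ⟨⟨i, hi⟩, rfl⟩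
        refine ⟨-(2 : F)⁻¹ • u i, ?_⟩
        rw [LinearMap.sub_apply, LinearMap.id_apply, LinearEquiv.coe_coe, map_smul, huj i hi]
        have : (2 : F)⁻¹ * 2 = 1 := inv_mul_cancel₀ h2
        have h4 : -(2 : F)⁻¹ • -u i - -(2 : F)⁻¹ • u i = ((2 : F)⁻¹ * 2) • u i := by module
        rw [h4, this, one_smul]
    rw [h3, finrank_span_eq_card, Fintype.card_coe, hcard]
    exact (hu.linearIndependent h2).comp _ Subtype.val_injective

end Cfsg.Agent.H14.OmInv
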