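import Cfsg.Agent.H14.SubField
import Cfsg.Agent.H41.SL2b

/-! `PSL₂(q)`, `q = 3^(2n+1)`: the Sylow 3-subgroup (first half of the data `KD0` for S2755). -/

set_option autoImplicit false

open Matrix Cfsg.Agent.H41

namespace Cfsg.Agent.H14.RtU

variable {F : Type*} [Field F] {K : Type*} [Group K]

/-- the upper unitriangular matrix -/
def u (x : F) : Matrix.SpecialLinearGroup (Fin 2) F := mk4 1 x 0 1 (by ring)

theorem u_mul (x y : F) : u x * u y = u (x + y) := by
  apply sl2_ext <;> simp only [u, mul_00, mul_01, mul_10, mul_11, mk4_00, mk4_01, mk4_10, mk4_11] <;>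
    ring

theorem u_zero : u (0 : F) = 1 := by
  apply sl2_ext <;> simp [u]

theorem u_inv (x : F) : (u x)⁻¹ = u (-x) := by
  rw [inv_eq_iff_mul_eq_one, u_mul, add_neg_cancel, u_zero]

theorem u_inj {x y : F} (h : u x = u y) : x = y := by
  have := congrArg (fun A : Matrix.SpecialLinearGroup (Fin 2) F => A 0 1) h
  simpa [u] using this

theorem conj_10 (A : Matrix.SpecialLinearGroup (Fin 2) F) (x : F) :
    (A * u x * A⁻¹) 1 0 = -(A 1 0) ^ 2 * x := by
  simp only [u, mul_10, mul_11, inv_00, inv_10, mk4_00, mk4_01, mk4_10, mk4_11]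
  ring

theorem conj_upper (A : Matrix.SpecialLinearGroup (Fin 2) F) (hA : A 1 0 = 0) (x : F) :
    A * u x * A⁻¹ = u ((A 0 0) ^ 2 * x) := by
  have hd := det_eq A
  rw [hA] at hd
  apply sl2_ext <;> simp only [u, mul_00, mul_01, mul_10, mul_11, inv_00, inv_01, inv_10, inv_11,
    mk4_00, mk4_01, mk4_10, mk4_11, hA]
  · linear_combination hd
  · ring
  · ring
  · linear_combination hd

/-- standing data: `φ : SL₂(F) → K` surjective with kernel `±1` -/
structure Dat (φ : Matrix.SpecialLinearGroup (Fin 2) F →* K) : Prop where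
  surj : Function.Surjective φ
  inj : ∀ A B : Matrix.SpecialLinearGroup (Fin 2) F, φ A = φ B → A = B ∨ A = -B
  neg : ∀ A : Matrix.SpecialLinearGroup (Fin 2) F, φ (-A) = φ A

/-- the subgroup `U` -/
def U (φ : Matrix.SpecialLinearGroup (Fin 2) F →* K) : Subgroup K where
  carrier := {g | ∃ x : F, φ (u x) = g}
  one_mem' := ⟨0, by rw [u_zero, map_one]⟩
  mul_mem' := by
    rintro _ _ ⟨x, rfl⟩ ⟨y, rfl⟩
    exact ⟨x + y, by rw [← u_mul, map_mul]⟩
  inv_mem' := by
    rintro _ ⟨x, rfl⟩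
    exact ⟨-x, by rw [← u_inv, map_inv]⟩

variable {φ : Matrix.SpecialLinearGroup (Fin 2) F →* K}

theorem mem_U {g : K} : g ∈ U φ ↔ ∃ x : F, φ (u x) = g := Iff.rfl

theorem u_mem (x : F) : φ (u x) ∈ U φ := ⟨x, rfl⟩

theorem u_eq_of (h2 : (2 : F) ≠ 0) {x y : F} (h : u x = u y ∨ u x = -u y) : x = y := by
  rcases h with h | h
  · exact u_inj h
  · exfalso
    have := congrArg (fun A : Matrix.SpecialLinearGroup (Fin 2) F => A 0 0) h
    simp only [u, mk4_00, neg_00] at this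
    exact h2 (by linear_combination this)

theorem Dat.u_inj' (D : Dat φ) (h2 : (2 : F) ≠ 0) {x y : F} (h : φ (u x) = φ (u y)) : x = y :=
  u_eq_of h2 (D.inj _ _ h)

theorem card_U [Fintype F] (D : Dat φ) (h2 : (2 : F) ≠ 0) : Nat.card (U φ) = Fintype.card F := by
  rw [← Nat.card_eq_fintype_card]
  symm
  refine Nat.card_congr (Equiv.ofBijective (fun x : F => (⟨φ (u x), u_mem x⟩ : U φ)) ⟨?_, ?_⟩)
  · intro x y h
    exact D.u_inj' h2 (congrArg Subtype.val h)
  · rintro ⟨_, x, rfl⟩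
    exact ⟨x, rfl⟩

/-- if a conjugate of a nontrivial element of `U` is in `U`, the matrix is triangular -/
theorem Dat.tri (D : Dat φ) {A : Matrix.SpecialLinearGroup (Fin 2) F} {x : F} (hx : x ≠ 0)
    (h : φ A * φ (u x) * (φ A)⁻¹ ∈ U φ) : A 1 0 = 0 := by
  obtain ⟨y, hy⟩ := h
  rw [← map_inv, ← map_mul, ← map_mul] at hy
  have h1 := conj_10 A x
  have h3 : (A * u x * A⁻¹) 1 0 = 0 := by
    rcases D.inj _ _ hy with h2 | h2
    · rw [← h2]; simp [u]
    · have h4 : A * u x * A⁻¹ = -u y := by rw [h2, neg_neg]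
      rw [h4]; simp [u]
  rw [h3] at h1
  have h4 : (A 1 0) ^ 2 = 0 := by
    rcases mul_eq_zero.1 h1.symm with h5 | h5
    · exact neg_eq_zero.1 h5
    · exact absurd h5 hx
  exact pow_eq_zero_iff (two_ne_zero) |>.1 h4

theorem mem_norm (D : Dat φ) {A : Matrix.SpecialLinearGroup (Fin 2) F} :
    φ A ∈ Subgroup.normalizer (U φ : Set K) ↔ A 1 0 = 0 := by
  constructor
  · intro h
    exact D.tri one_ne_zero ((Subgroup.mem_normalizer_iff.1 h _).1 (u_mem 1))
  · intro h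
    have key : ∀ B : Matrix.SpecialLinearGroup (Fin 2) F, B 1 0 = 0 → ∀ g ∈ U φ,
        φ B * g * (φ B)⁻¹ ∈ U φ := by
      rintro B hB _ ⟨x, rfl⟩
      rw [← map_inv, ← map_mul, ← map_mul, conj_upper B hB]
      exact u_mem _
    rw [Subgroup.mem_normalizer_iff]
    intro g
    refine ⟨key A h g, fun hg => ?_⟩
    have h1 := key A⁻¹ (by rw [inv_10, h, neg_zero]) _ hg
    simpa [mul_assoc] using h1

theorem Ucomm : ∀ x ∈ U φ, ∀ y ∈ U φ, x * y = y * x := by
  rintro _ ⟨x, rfl⟩ _ ⟨y, rfl⟩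
  rw [← map_mul, ← map_mul, u_mul, u_mul, add_comm]

theorem Uexp (h3 : (3 : F) = 0) : ∀ x ∈ U φ, x ^ 3 = 1 := by
  rintro _ ⟨x, rfl⟩
  rw [← map_pow, pow_succ, pow_two, u_mul, u_mul,
    show x + x + x = 3 * x by ring, h3, zero_mul, u_zero, map_one]

theorem Dat.ne (D : Dat φ) {x : F} (h : φ (u x) ≠ 1) : x ≠ 0 := by
  rintro rfl
  exact h (by rw [u_zero, map_one])

theorem Ucent (D : Dat φ) (h2 : (2 : F) ≠ 0) : ∀ x ∈ U φ, x ≠ 1 → ∀ g : K, g * x = x * g →
    g ∈ U φ := by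
  rintro _ ⟨x, rfl⟩ hx1 g hg
  have hx : x ≠ 0 := D.ne hx1
  obtain ⟨A, rfl⟩ := D.surj g
  have h3 : φ A * φ (u x) * (φ A)⁻¹ = φ (u x) := by rw [hg]; group
  have hA : A 1 0 = 0 := D.tri hx (by rw [h3]; exact u_mem x)
  have hd := det_eq A
  rw [hA] at hd
  rw [← map_inv, ← map_mul, ← map_mul, conj_upper A hA] at h3
  have h4 := D.u_inj' h2 h3
  have h5 : (A 0 0 - 1) * (A 0 0 + 1) = 0 := by
    have : ((A 0 0) ^ 2 - 1) * x = 0 := by linear_combination h4
    rcases mul_eq_zero.1 this with h6 | h6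
    · linear_combination h6
    · exact absurd h6 hx
  rcases mul_eq_zero.1 h5 with h6 | h6
  · refine ⟨A 0 1, ?_⟩
    congr 1
    apply sl2_ext <;> simp only [u, mk4_00, mk4_01, mk4_10, mk4_11]
    · linear_combination -h6
    · exact hA.symm
    · linear_combination -hd + (A 1 1) * h6
  · refine ⟨-A 0 1, ?_⟩
    rw [← D.neg A]
    congr 1
    apply sl2_ext <;> simp only [u, mk4_00, mk4_01, mk4_10, mk4_11, neg_00, neg_01, neg_10, neg_11]
    · linear_combination h6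
    · rw [hA, neg_zero]
    · linear_combination -hd + (A 1 1) * h6

theorem Bcomm (D : Dat φ) : ∀ b ∈ Subgroup.normalizer (U φ : Set K),
    ∀ c ∈ Subgroup.normalizer (U φ : Set K), b * c * b⁻¹ * c⁻¹ ∈ U φ := by
  intro b hb c hc
  obtain ⟨A, rfl⟩ := D.surj b
  obtain ⟨B, rfl⟩ := D.surj c
  rw [mem_norm D] at hb hc
  have hA := det_eq A
  have hB := det_eq B
  rw [hb] at hA
  rw [hc] at hB
  refine ⟨(A * B * A⁻¹ * B⁻¹) 0 1, ?_⟩
  rw [← map_inv, ← map_inv, ← map_mul, ← map_mul, ← map_mul]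
  congr 1
  apply sl2_ext
  · simp only [u, mk4_00, mul_00, mul_01, mul_10, mul_11, inv_00, inv_01, inv_10, inv_11, hb, hc]
    linear_combination -(B 0 0 * B 1 1) * hA - hB
  · simp [u]
  · simp only [u, mk4_10, mul_00, mul_01, mul_10, mul_11, inv_00, inv_01, inv_10, inv_11, hb, hc]
    ring
  · simp only [u, mk4_11, mul_00, mul_01, mul_10, mul_11, inv_00, inv_01, inv_10, inv_11, hb, hc]
    linear_combination -(B 0 0 * B 1 1) * hA - hB

theorem UTI (D : Dat φ) : ∀ g x : K, x ∈ U φ → x ≠ 1 → g * x * g⁻¹ ∈ U φ →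
    g ∈ Subgroup.normalizer (U φ : Set K) := by
  rintro g _ ⟨x, rfl⟩ hx1 hg
  obtain ⟨A, rfl⟩ := D.surj g
  exact (mem_norm D).2 (D.tri (D.ne hx1) hg)

theorem Uconj [CharP F 3] (D : Dat φ) : ∀ x : K, x ^ 3 = 1 → ∃ g : K, g * x * g⁻¹ ∈ U φ := by
  intro x hx
  obtain ⟨A, rfl⟩ := D.surj x
  -- choose the sign
  obtain ⟨B, hB, hB3⟩ : ∃ B : Matrix.SpecialLinearGroup (Fin 2) F, φ B = φ A ∧ B ^ 3 = 1 := by
    rw [← map_pow, ← map_one φ] at hx
    rcases D.inj _ _ hx with h | h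
    · exact ⟨A, rfl, h⟩
    · refine ⟨-A, D.neg A, ?_⟩
      rw [Odd.neg_pow (by decide), h, neg_neg]
  have htr : tr B = 2 := by
    have := tr_eq_of_pow_char (p := 3) B 1 (by
      rw [← Matrix.SpecialLinearGroup.coe_pow, hB3]; simp)
    simpa using this
  have hd := det_eq B
  rw [tr] at htr
  by_cases hc : B 1 0 = 0
  · refine ⟨1, ?_⟩
    rw [← hB, one_mul, inv_one, mul_one]
    refine ⟨B 0 1, ?_⟩
    congr 1
    have h1 : (B 0 0 - 1) ^ 2 = 0 := by
      rw [hc] at hd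
      linear_combination -hd + (B 0 0) * htr
    have h2 : B 0 0 = 1 := by
      have := pow_eq_zero_iff (two_ne_zero) |>.1 h1
      linear_combination this
    apply sl2_ext <;> simp only [u, mk4_00, mk4_01, mk4_10, mk4_11]
    · rw [h2]
    · rw [hc]
    · linear_combination h2 - htr
  · let P : Matrix.SpecialLinearGroup (Fin 2) F := mk4 0 (-(B 1 0)⁻¹) (B 1 0) (1 - B 0 0)
      (by field_simp; ring)
    refine ⟨φ P, (P * B * P⁻¹) 0 1, ?_⟩
    rw [← hB, ← map_inv, ← map_mul, ← map_mul]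
    congr 1
    apply sl2_ext
    · simp only [u, mk4_00, P, mk4_01, mk4_10, mk4_11, mul_00, mul_01, mul_10, mul_11, inv_00,
        inv_01, inv_10, inv_11]
      field_simp
      linear_combination -htr
    · simp [u]
    · simp only [u, P, mk4_00, mk4_01, mk4_10, mk4_11, mul_00, mul_01, mul_10, mul_11, inv_00,
        inv_01, inv_10, inv_11]
      linear_combination -(B 1 0) * hd + (B 1 0) * htr
    · simp only [u, P, mk4_00, mk4_01, mk4_10, mk4_11, mul_00, mul_01, mul_10, mul_11, inv_00,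
        inv_01, inv_10, inv_11]
      field_simp
      ring

theorem Ucl [Fintype F] (h3 : Fintype.card F % 4 = 3) (D : Dat φ) :
    ∀ x ∈ U φ, x ≠ 1 → ∀ y ∈ U φ, y ≠ 1 → ∃ g : K, g * x * g⁻¹ = y ∨ g * x * g⁻¹ = y⁻¹ := by
  classical
  rintro _ ⟨x, rfl⟩ hx1 _ ⟨y, rfl⟩ hy1
  have hx := D.ne hx1
  have hy := D.ne hy1
  have key : ∀ r : F, r ≠ 0 → IsSquare r ∨ IsSquare (-r) := by
    intro r hr
    by_contra hcon
    push Not at hcon
    have hm : ¬ IsSquare (-1 : F) := by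
      rw [FiniteField.isSquare_neg_one_iff]; simp [h3]
    have h4 := quadraticChar_neg_one_iff_not_isSquare.2 hcon.1
    have h5 := quadraticChar_neg_one_iff_not_isSquare.2 hcon.2
    have h6 := quadraticChar_neg_one_iff_not_isSquare.2 hm
    have h7 : quadraticChar F (-r) = quadraticChar F (-1) * quadraticChar F r := by
      rw [← map_mul]; congr 1; ring
    rw [h4, h5, h6] at h7
    norm_num at h7
  have hconj : ∀ a : F, a ≠ 0 → ∃ g : K, g * φ (u x) * g⁻¹ = φ (u (a * a * x)) := by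
    intro a ha
    refine ⟨φ (mk4 a 0 0 a⁻¹ (by field_simp; ring)), ?_⟩
    rw [← map_inv, ← map_mul, ← map_mul, conj_upper _ (by simp)]
    simp [pow_two]
  rcases key (y / x) (div_ne_zero hy hx) with ⟨a, ha⟩ | ⟨a, ha⟩
  · have ha0 : a ≠ 0 := by
      rintro rfl
      rw [mul_zero] at ha
      exact (div_ne_zero hy hx) ha
    obtain ⟨g, hg⟩ := hconj a ha0
    refine ⟨g, Or.inl ?_⟩
    rw [hg, ← ha, div_mul_cancel₀ _ hx]
  · have ha0 : a ≠ 0 := by
      rintro rfl
      rw [mul_zero] at ha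
      exact (div_ne_zero hy hx) (neg_eq_zero.1 ha)
    obtain ⟨g, hg⟩ := hconj a ha0
    refine ⟨g, Or.inr ?_⟩
    rw [hg, ← ha, ← map_inv, u_inv, neg_mul, div_mul_cancel₀ _ hx]

theorem card_NU [Fintype F] [Finite K] (D : Dat φ)
    (hK : Nat.card K * 2 = Nat.card (Matrix.SpecialLinearGroup (Fin 2) F)) :
    Nat.card (Subgroup.normalizer (U φ : Set K)) * 2 = Fintype.card F * (Fintype.card F - 1) := by
  classical
  set N := Subgroup.normalizer (U φ : Set K) with hN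
  have h1 : (N.comap φ).index = N.index := Subgroup.index_comap_of_surjective _ D.surj
  have h2 := Subgroup.card_mul_index (N.comap φ)
  have h3 := Subgroup.card_mul_index N
  have hi : N.index ≠ 0 := Subgroup.index_ne_zero_of_finite
  have h4 : Nat.card N * 2 = Nat.card (N.comap φ) := by
    apply Nat.eq_of_mul_eq_mul_right (Nat.pos_of_ne_zero hi)
    rw [← h1, h2, h1, mul_right_comm, h3, hK]
  rw [h4]
  have h5 : Nat.card (N.comap φ) = Nat.card (Fˣ × F) := by
    refine Nat.card_congr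
      { toFun := fun A => (Units.mk0 ((A : Matrix.SpecialLinearGroup (Fin 2) F) 0 0) ?_, (A : Matrix.SpecialLinearGroup (Fin 2) F) 0 1)
        invFun := fun p => ⟨mk4 (p.1 : F) p.2 0 ((p.1⁻¹ : Fˣ) : F) (by simp), ?_⟩
        left_inv := ?_
        right_inv := ?_ }
    · have hA : (A : Matrix.SpecialLinearGroup (Fin 2) F) 1 0 = 0 := (mem_norm D).1 A.2
      intro h0
      have hd := det_eq (A : Matrix.SpecialLinearGroup (Fin 2) F)
      rw [hA, h0] at hd
      simp at hd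
    · exact (mem_norm D).2 (by simp)
    · intro A
      have hA : (A : Matrix.SpecialLinearGroup (Fin 2) F) 1 0 = 0 := (mem_norm D).1 A.2
      have hd := det_eq (A : Matrix.SpecialLinearGroup (Fin 2) F)
      rw [hA] at hd
      apply Subtype.ext
      apply sl2_ext
      · simp
      · simp
      · simp [hA]
      · simp only [mk4_11, Units.val_inv_eq_inv_val, Units.val_mk0]
        exact inv_eq_of_mul_eq_one_right (by linear_combination hd)
    · intro p
      ext <;> simp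
  rw [h5, Nat.card_prod, Nat.card_eq_fintype_card, Nat.card_eq_fintype_card, Fintype.card_units,
    mul_comm]

theorem dat (e : K ≃* Matrix.ProjectiveSpecialLinearGroup (Fin 2) F) :
    Dat (e.symm.toMonoidHom.comp (QuotientGroup.mk' (Subgroup.center (Matrix.SpecialLinearGroup (Fin 2) F)))) where
  surj := by
    intro x
    obtain ⟨A, hA⟩ := QuotientGroup.mk'_surjective _ (e x)
    refine ⟨A, ?_⟩
    show e.symm _ = x
    rw [e.symm_apply_eq]
    exact hA
  inj := by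
    intro A B h
    have : (QuotientGroup.mk A : Matrix.ProjectiveSpecialLinearGroup (Fin 2) F) = QuotientGroup.mk B :=
      e.symm.injective h
    exact psl2_mk_eq_iff.1 this
  neg := by
    intro A
    show e.symm _ = e.symm _
    congr 1
    exact psl2_mk_eq_iff.2 (Or.inr rfl)

theorem half1 {F : Type*} [Field F] [Fintype F] (n : ℕ) (hn : 1 ≤ n)
    (hF : Fintype.card F = 3 ^ (2 * n + 1)) {K : Type*} [Group K]
    (e : K ≃* Matrix.ProjectiveSpecialLinearGroup (Fin 2) F) (m : ℕ)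
    (hqm : Fintype.card F + 1 = 4 * m) (hm : Odd m) :
    ∃ U : Subgroup K,
      27 ≤ 3 ^ (2 * n + 1) ∧
      (∃ N : ℕ, 3 ^ (2 * n + 1) = 3 ^ N) ∧
      3 ^ (2 * n + 1) + 1 = 4 * m ∧
      Odd m ∧
      Nat.card K * 2 = 3 ^ (2 * n + 1) * (3 ^ (2 * n + 1) - 1) * (3 ^ (2 * n + 1) + 1) ∧
      Nat.card U = 3 ^ (2 * n + 1) ∧
      (∀ x ∈ U, ∀ y ∈ U, x * y = y * x) ∧
      (∀ x ∈ U, x ^ 3 = 1) ∧
      (∀ x ∈ U, x ≠ 1 → ∀ g : K, g * x = x * g → g ∈ U) ∧
      Nat.card (Subgroup.normalizer (U : Set K)) * 2 = 3 ^ (2 * n + 1) * (3 ^ (2 * n + 1) - 1) ∧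
      (∀ b ∈ Subgroup.normalizer (U : Set K), ∀ c ∈ Subgroup.normalizer (U : Set K),
        b * c * b⁻¹ * c⁻¹ ∈ U) ∧
      (∀ g x : K, x ∈ U → x ≠ 1 → g * x * g⁻¹ ∈ U → g ∈ Subgroup.normalizer (U : Set K)) ∧
      (∀ x : K, x ^ 3 = 1 → ∃ g : K, g * x * g⁻¹ ∈ U) ∧
      (∀ x ∈ U, x ≠ 1 → ∀ y ∈ U, y ≠ 1 → ∃ g : K, g * x * g⁻¹ = y ∨ g * x * g⁻¹ = y⁻¹) := by
  classical
  have hodd : Odd (Fintype.card F) := by rw [hF]; exact Odd.pow (by decide)
  have hch : CharP F 3 := by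
    obtain ⟨p, hp⟩ := CharP.exists F
    have : Fact p.Prime := ⟨CharP.char_is_prime F p⟩
    obtain ⟨k, hk, hk'⟩ := FiniteField.card F p
    have h1 : p ∣ 3 ^ (2 * n + 1) := by
      rw [← hF, hk']
      exact dvd_pow_self _ (PNat.ne_zero k)
    have h2 : p = 3 := (Nat.prime_dvd_prime_iff_eq Fact.out Nat.prime_three).1
      (Nat.Prime.dvd_of_dvd_pow Fact.out h1)
    rw [← h2]; exact hp
  have h3 : (3 : F) = 0 := by
    have := CharP.cast_eq_zero F 3
    simpa using this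
  have h2 : (2 : F) ≠ 0 := by
    intro h
    have : (1 : F) = 0 := by linear_combination h3 - h
    exact one_ne_zero this
  have h4 : Fintype.card F % 4 = 3 := by omega
  have hK : Nat.card K * 2 = Fintype.card F * ((Fintype.card F - 1) * (Fintype.card F + 1)) := by
    rw [Nat.card_congr e.toEquiv, mul_comm, SubField.card_PSL2_odd hodd]
  have hKf : Finite K := Finite.of_equiv _ e.symm.toEquiv
  have D := dat e
  refine ⟨U _, ?_, ⟨_, rfl⟩, by rw [← hF, hqm], hm, ?_, ?_, Ucomm, Uexp h3, Ucent D h2, ?_,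
    Bcomm D, UTI D, Uconj D, Ucl h4 D⟩
  · calc 27 = 3 ^ 3 := by norm_num
      _ ≤ 3 ^ (2 * n + 1) := Nat.pow_le_pow_right (by norm_num) (by omega)
  · rw [← hF, hK, mul_assoc]
  · rw [card_U D h2, hF]
  · rw [card_NU D (by rw [hK, H81.card_sl2]), hF]

end Cfsg.Agent.H14.RtU
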