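import Cfsg.Agent.H14.Transport
import Cfsg.Agent.H14.Refl
import Cfsg.Agent.OrthCount.Orders

/-! `SO₃(3) ≅ S₄`. -/

set_option autoImplicit false

open Cfsg

namespace Cfsg.Agent.H14.SO33

open Matrix Cfsg.Agent.H14.Ortho Cfsg.Agent.H14.Transport

abbrev K := ZMod 3
abbrev J := Unit ⊕ (Fin 1 ⊕ Fin 1)

/-- vector from coordinates -/
def vec (x y z : K) : J → K := fun j => match j with
  | .inl _ => x
  | .inr (.inl _) => y
  | .inr (.inr _) => z

theorem vec_eta (v : J → K) : v = vec (v (.inl ())) (v (.inr (.inl 0))) (v (.inr (.inr 0))) := by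
  funext j
  rcases j with j | (j | j)
  · rfl
  · have : j = 0 := Subsingleton.elim _ _
    subst this; rfl
  · have : j = 0 := Subsingleton.elim _ _
    subst this; rfl

def QK : (J → K) → K := fun v => v (.inl ()) ^ 2 + v (.inr (.inl 0)) * v (.inr (.inr 0))

/-- the four singular points -/
def u : Fin 4 → (J → K)
  | 0 => vec 0 1 0
  | 1 => vec 0 0 2
  | 2 => vec 1 1 2
  | 3 => vec 2 1 2

/-- the sign -/
def sg (π : Equiv.Perm (Fin 4)) : K := ((Equiv.Perm.sign π : ℤˣ) : ℤ)

def M (π : Equiv.Perm (Fin 4)) : Matrix J J K := fun a b => match b with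
  | .inl _ => sg π * (u (π 2) a - u (π 0) a - u (π 1) a)
  | .inr (.inl _) => sg π * u (π 0) a
  | .inr (.inr _) => sg π * (2 * u (π 1) a)

theorem M_u : ∀ (π : Equiv.Perm (Fin 4)) (i : Fin 4), M π *ᵥ u i = sg π • u (π i) := by
  decide +kernel

theorem Q_M : ∀ (π : Equiv.Perm (Fin 4)) (x y z : K), QK (M π *ᵥ vec x y z) = QK (vec x y z) := by
  decide +kernel

theorem det_M : ∀ π : Equiv.Perm (Fin 4), (M π).det = 1 := by
  decide +kernel

theorem sg_mul (π τ : Equiv.Perm (Fin 4)) : sg (π * τ) = sg π * sg τ := by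
  simp [sg]

theorem sg_ne (π : Equiv.Perm (Fin 4)) : sg π = 1 ∨ sg π = 2 := by
  rcases Int.units_eq_one_or (Equiv.Perm.sign π) with h | h
  · left; simp [sg, h]
  · right; simp only [sg, h]; decide

theorem vec_span (x y z : K) : vec x y z = x • (u 2 - u 0 - u 1) + y • u 0 + z • ((2 : K) • u 1) := by
  revert x y z
  decide +kernel

theorem eq_of_u {A B : Matrix J J K} (h : ∀ i, A *ᵥ u i = B *ᵥ u i) : A = B := by
  apply ext_mulVec
  intro v
  rw [vec_eta v, vec_span]
  simp only [mulVec_add, mulVec_sub, mulVec_smul, h]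

theorem M_mul (π τ : Equiv.Perm (Fin 4)) : M π * M τ = M (π * τ) := by
  apply eq_of_u
  intro i
  rw [← mulVec_mulVec, M_u, mulVec_smul, M_u, M_u, smul_smul, sg_mul, mul_comm (sg π),
    Equiv.Perm.mul_apply]

theorem M_one : M 1 = 1 := by decide +kernel

theorem u_par : ∀ i j : Fin 4, ∀ c : K, (c = 1 ∨ c = 2) → c • u i = u j → i = j := by decide +kernel

noncomputable def Phi0 : Equiv.Perm (Fin 4) →* ↥(Cfsg.isometryGroup K QK) where
  toFun σ := ⟨⟨M σ, M σ⁻¹, by rw [M_mul, mul_inv_cancel, M_one],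
    by rw [M_mul, inv_mul_cancel, M_one]⟩, mem_isometryGroup.2 (fun v => by
      rw [vec_eta v]; exact Q_M σ _ _ _)⟩
  map_one' := Subtype.ext (Units.ext M_one)
  map_mul' σ τ := Subtype.ext (Units.ext (M_mul σ τ).symm)

theorem Phi0_mem (σ : Equiv.Perm (Fin 4)) : Phi0 σ ∈ Cfsg.specialIsometryGroup K QK := by
  show Matrix.GeneralLinearGroup.det ((Phi0 σ : ↥(Cfsg.isometryGroup K QK)) : GeneralLinearGroup J K) = 1
  apply Units.ext
  exact det_M σ

noncomputable def Phi : Equiv.Perm (Fin 4) →* ↥(Cfsg.specialIsometryGroup K QK) :=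
  Phi0.codRestrict _ Phi0_mem

theorem Phi_injective : Function.Injective Phi := by
  rw [injective_iff_map_eq_one]
  intro σ hσ
  have hM : M σ = 1 := congrArg (fun g : ↥(Cfsg.specialIsometryGroup K QK) =>
    (((g : ↥(Cfsg.isometryGroup K QK)) : GeneralLinearGroup J K) : Matrix J J K)) hσ
  apply Equiv.ext
  intro i
  have h1 := M_u σ i
  rw [hM, one_mulVec] at h1
  exact u_par _ _ _ (sg_ne σ) h1.symm

theorem card_O : Nat.card ↥(Cfsg.isometryGroup K QK) = 48 := by
  have h : QK = Cfsg.quadFormOdd 1 K := by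
    funext v
    simp [QK, Cfsg.quadFormOdd]
  rw [h, OrthCount.order_odd (by decide) 1, Nat.card_eq_fintype_card (α := K), ZMod.card]
  simp

theorem card_eq : Nat.card (Equiv.Perm (Fin 4)) = Nat.card ↥(Cfsg.specialIsometryGroup K QK) := by
  set f := (Matrix.GeneralLinearGroup.det (n := J) (R := K)).comp (Cfsg.isometryGroup K QK).subtype with hf
  have h1 := Subgroup.card_mul_index f.ker
  rw [card_O, Subgroup.index_ker] at h1
  have h2 : f.range = ⊤ := by
    have hmem : ∃ g : ↥(Cfsg.isometryGroup K QK), f g = -1 := by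
      refine ⟨⟨-1, mem_isometryGroup.2 (fun v => ?_)⟩, ?_⟩
      · show QK ((-1 : Matrix J J K) *ᵥ v) = QK v
        rw [neg_mulVec, one_mulVec]
        simp [QK]
      · apply Units.ext
        show Matrix.det (-1 : Matrix J J K) = -1
        decide +kernel
    obtain ⟨g, hg⟩ := hmem
    rw [eq_top_iff]
    intro x _
    have h3 : ∀ x : Kˣ, x = 1 ∨ x = -1 := by decide
    rcases h3 x with rfl | rfl
    · exact one_mem _
    · exact ⟨g, hg⟩
  rw [h2, Subgroup.card_top, Nat.card_eq_fintype_card (α := Kˣ)] at h1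
  have h4 : Fintype.card Kˣ = 2 := by decide
  rw [h4] at h1
  have h5 : Nat.card ↥(Cfsg.specialIsometryGroup K QK) = Nat.card f.ker := rfl
  rw [h5, Nat.card_eq_fintype_card, Fintype.card_perm]
  simp only [Fintype.card_fin]
  have : Nat.factorial 4 = 24 := rfl
  omega

theorem Phi_bijective : Function.Bijective Phi := by
  have hfin : Finite ↥(Cfsg.specialIsometryGroup K QK) :=
    Nat.finite_of_card_ne_zero (by rw [← card_eq]; exact Nat.card_pos.ne')
  exact (Nat.bijective_iff_injective_and_card Phi).2 ⟨Phi_injective, card_eq⟩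

theorem row {F : Type*} [Field F] [Fintype F] (hF : Fintype.card F = 3) :
    Nonempty (↥(Cfsg.specialIsometryGroup F (Cfsg.quadFormOdd 1 F)) ≃* Equiv.Perm (Fin 4)) := by
  let e : F ≃+* K := (ZMod.ringEquivOfPrime F Nat.prime_three hF).symm
  have h : ∀ v, e (Cfsg.quadFormOdd 1 F v) = QK (fun i => e (v i)) := by
    intro v
    simp [Cfsg.quadFormOdd, QK]
  have hmap : (Cfsg.specialIsometryGroup F (Cfsg.quadFormOdd 1 F)).map
      (isometryEquiv e _ _ h).toMonoidHom = Cfsg.specialIsometryGroup K QK := by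
    have hdet : ∀ g : ↥(Cfsg.isometryGroup F (Cfsg.quadFormOdd 1 F)),
        g ∈ Cfsg.specialIsometryGroup F (Cfsg.quadFormOdd 1 F) ↔
          isometryEquiv e _ _ h g ∈ Cfsg.specialIsometryGroup K QK := by
      intro g
      have h1 : (((isometryEquiv e _ _ h g : ↥(Cfsg.isometryGroup K QK)) : GeneralLinearGroup J K) :
          Matrix J J K).det = e (((g : GeneralLinearGroup J F) : Matrix J J F).det) := by
        rw [isometryEquiv_coe]
        exact (RingHom.map_det (e : F →+* K) _).symm
      constructor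
      · intro hg
        have hg' : Matrix.GeneralLinearGroup.det (g : GeneralLinearGroup J F) = 1 := hg
        show Matrix.GeneralLinearGroup.det _ = 1
        apply Units.ext
        have h2 : (((g : GeneralLinearGroup J F) : Matrix J J F).det) = 1 := congrArg Units.val hg'
        rw [h2, map_one] at h1
        exact h1
      · intro hg
        have hg' : Matrix.GeneralLinearGroup.det
          ((isometryEquiv e _ _ h g : ↥(Cfsg.isometryGroup K QK)) : GeneralLinearGroup J K) = 1 := hg
        show Matrix.GeneralLinearGroup.det _ = 1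
        apply Units.ext
        have h2 := congrArg Units.val hg'
        have h3 : e (((g : GeneralLinearGroup J F) : Matrix J J F).det) = e 1 := by
          rw [map_one, ← h1]; exact h2
        exact e.injective h3
    ext x
    constructor
    · rintro ⟨g, hg, rfl⟩
      exact (hdet g).1 hg
    · intro hx
      refine ⟨(isometryEquiv e _ _ h).symm x, (hdet _).2 ?_, (isometryEquiv e _ _ h).apply_symm_apply x⟩
      rw [(isometryEquiv e _ _ h).apply_symm_apply]; exact hx
  exact ⟨(((isometryEquiv e _ _ h).subgroupMap _).trans (MulEquiv.subgroupCongr hmap)).trans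
    (MulEquiv.ofBijective Phi Phi_bijective).symm⟩

end Cfsg.Agent.H14.SO33
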