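import Mathlib
import Cfsg.Agent.H43.DagSU
import Cfsg.Agent.H41.SemisMat

set_option autoImplicit false

/-! Conjugacy of semisimple elements of `SU_n(q)`. -/

namespace Cfsg.Agent.H14.SUC

open Polynomial Cfsg.Agent.H43

theorem SB_e_one {F V : Type*} [Field F] [AddCommGroup V] [Module F V] {g : Module.End F V} {t : ℕ} {p : Fin t → F[X]} {e : Fin t → ℕ}
    {φ : V ≃ₗ[F] ((i : Fin t) → F[X] ⧸ Ideal.span {p i ^ e i})} (h : SB g (fun i => p i ^ e i) φ)
    (hp : ∀ i, ClN (p i) ∧ 1 ≤ e i) (m : ℕ) (hm : (m : F) ≠ 0) (hg : g ^ m = 1) (j : Fin t) : e j = 1 := by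
  classical
  have h1 : Polynomial.aeval g (X ^ m - 1 : F[X]) = 0 := by
    rw [map_sub, map_pow, aeval_X, hg, map_one, sub_self]
  have h2 := h.aeval (X ^ m - 1 : F[X]) (φ.symm (Pi.single j 1)) j
  rw [h1, LinearMap.zero_apply, map_zero, LinearEquiv.apply_symm_apply, Pi.single_eq_same, mul_one, Pi.zero_apply] at h2
  have h3 : p j ^ e j ∣ (X ^ m - 1 : F[X]) := by
    rw [← Ideal.mem_span_singleton]
    exact Ideal.Quotient.eq_zero_iff_mem.1 h2.symm
  have h4 : Squarefree (X ^ m - 1 : F[X]) := by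
    have := (Polynomial.separable_X_pow_sub_C (1 : F) hm one_ne_zero).squarefree
    rwa [C_1] at this
  by_contra hne
  have h5 : 2 ≤ e j := by have := (hp j).2; omega
  have h6 : p j * p j ∣ (X ^ m - 1 : F[X]) := by
    rw [← sq]
    exact (pow_dvd_pow _ h5).trans h3
  exact (hp j).1.2.1.not_isUnit (h4 _ h6)

theorem exists_GU_commute {K : Type*} [Field K] [Fintype K] (σ : K →+* K) (hσ : ∀ x, σ (σ x) = x) (hne : σ ≠ RingHom.id K) {n : ℕ} (hn : n ≠ 0)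
    {A : GL (Fin n) K} (hA : stm σ (A : Matrix (Fin n) (Fin n) K) * (A : Matrix (Fin n) (Fin n) K) = 1)
    (m : ℕ) (hm : (m : K) ≠ 0) (hAm : (A : Matrix (Fin n) (Fin n) K) ^ m = 1) (a : K) (ha : a * σ a = 1) :
    ∃ c : GL (Fin n) K, stm σ (c : Matrix (Fin n) (Fin n) K) * (c : Matrix (Fin n) (Fin n) K) = 1 ∧ c * A = A * c ∧
      (c : Matrix (Fin n) (Fin n) K).det = a := by
  obtain ⟨t, p, e, φ, hp, hSB⟩ := exists_prim_gl A
  have hgm : (Matrix.toLin' (A : Matrix (Fin n) (Fin n) K)) ^ m = 1 := by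
    have h1 : (Matrix.toLin' (A : Matrix (Fin n) (Fin n) K)) ^ m = Matrix.toLin' ((A : Matrix (Fin n) (Fin n) K) ^ m) := (Matrix.toLin'_pow _ m).symm
    rw [h1, hAm, Matrix.toLin'_one]; rfl
  have he := SB_e_one hSB hp m hm hgm
  have ht : ∃ j : Fin t, True := by
    by_contra hcon
    push Not at hcon
    have hE : IsEmpty (Fin t) := ⟨fun j => by simpa using hcon j⟩
    have hsub : Subsingleton (Fin n → K) := φ.toEquiv.injective.subsingleton
    have : Nonempty (Fin n) := ⟨⟨0, Nat.pos_of_ne_zero hn⟩⟩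
    exact not_subsingleton (Fin n → K) hsub
  obtain ⟨j, -⟩ := ht
  obtain ⟨b, hb0, hb⟩ := exists_hilbert σ hσ hne a ha
  obtain ⟨c, hc1, hc2, hc3⟩ := exists_unitary_commute σ hσ hne hA hp hSB j b hb0
  refine ⟨c, hc1, hc2, ?_⟩
  have hσb : σ b ≠ 0 := (map_ne_zero_iff σ σ.injective).2 hb0
  rw [hc3, he j, pow_one, div_eq_iff hσb]
  exact hb

theorem exists_su_of {F : Type*} [Field F] {q n : ℕ} (X : GL (Fin n) F) (hX : X ∈ Cfsg.GU n F q) (hd : (X : Matrix (Fin n) (Fin n) F).det = 1) :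
    ∃ u : ↥(Cfsg.SU n F q), (suGU n F q u : GL (Fin n) F) = X := by
  obtain ⟨Y, hY⟩ : ∃ Y : Matrix.SpecialLinearGroup (Fin n) F, Matrix.SpecialLinearGroup.toGL Y = X :=
    ⟨⟨(X : Matrix (Fin n) (Fin n) F), hd⟩, Units.ext rfl⟩
  have hY2 : Y ∈ Cfsg.SU n F q := by
    rw [← hY] at hX
    exact hX
  exact ⟨⟨Y, hY2⟩, hY⟩

theorem su_conj {F : Type*} [Field F] [Fintype F] {q : ℕ} (hF : Fintype.card F = q ^ 2) (p : ℕ) [Fact p.Prime] [CharP F p] (n : ℕ)
    (g h : ↥(Cfsg.SU n F q)) (hg : (orderOf g).Coprime p) (hh : (orderOf h).Coprime p)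
    (hc : ((g : Matrix.SpecialLinearGroup (Fin n) F) : Matrix (Fin n) (Fin n) F).charpoly =
      ((h : Matrix.SpecialLinearGroup (Fin n) F) : Matrix (Fin n) (Fin n) F).charpoly) : IsConj g h := by
  rcases eq_or_ne n 0 with hn | hn
  · subst hn
    have : g = h := by
      apply Subtype.ext
      apply Subtype.ext
      exact Subsingleton.elim _ _
    rw [this]
  have hcop : (orderOf g * orderOf h).Coprime p := Nat.Coprime.mul_left hg hh
  have hm : ((orderOf g * orderOf h : ℕ) : F) ≠ 0 := by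
    rw [Ne, CharP.cast_eq_zero_iff F p]
    intro h1
    exact (Nat.Prime.coprime_iff_not_dvd Fact.out).mp hcop.symm h1
  obtain ⟨m, hmd⟩ : ∃ m, m = orderOf g * orderOf h := ⟨_, rfl⟩
  rw [← hmd] at hm
  have hcoe : ∀ (x : ↥(Cfsg.SU n F q)) (k : ℕ), (((x ^ k : ↥(Cfsg.SU n F q)) : Matrix.SpecialLinearGroup (Fin n) F) : Matrix (Fin n) (Fin n) F) =
      ((x : Matrix.SpecialLinearGroup (Fin n) F) : Matrix (Fin n) (Fin n) F) ^ k := fun x k => rfl
  have hgm : ((g : Matrix.SpecialLinearGroup (Fin n) F) : Matrix (Fin n) (Fin n) F) ^ m = 1 := by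
    rw [← hcoe, hmd, pow_mul, pow_orderOf_eq_one, one_pow]; rfl
  have hhm : ((h : Matrix.SpecialLinearGroup (Fin n) F) : Matrix (Fin n) (Fin n) F) ^ m = 1 := by
    rw [← hcoe, hmd, mul_comm, pow_mul, pow_orderOf_eq_one, one_pow]; rfl
  obtain ⟨P, hP, hPAB⟩ := Cfsg.Agent.H41.exists_simil_of_charpoly _ _ m hm hgm hhm hc
  -- conjugate in `GL`
  obtain ⟨σ, hσd⟩ : ∃ σ, σ = Cfsg.Agent.ClGeo.frob hF := ⟨_, rfl⟩
  have hσ : ∀ x, σ (σ x) = x := by rw [hσd]; exact Cfsg.Agent.ClGeo.frob_frob hF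
  have hne : σ ≠ RingHom.id F := by rw [hσd]; exact Cfsg.Agent.ClGeo.frob_ne_id hF
  have hgl : IsConj (suGU n F q g) (suGU n F q h) := by
    rw [isConj_GU_iff hF, isConj_iff]
    refine ⟨Matrix.GeneralLinearGroup.mkOfDetNeZero P hP, ?_⟩
    rw [mul_inv_eq_iff_eq_mul]
    apply Units.ext
    exact hPAB
  obtain ⟨k, hk⟩ := isConj_iff.1 hgl
  rw [mul_inv_eq_iff_eq_mul] at hk
  have hkU : stm σ ((k : GL (Fin n) F) : Matrix (Fin n) (Fin n) F) * ((k : GL (Fin n) F) : Matrix (Fin n) (Fin n) F) = 1 := by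
    rw [hσd]; exact (mem_GU_iff hF _).1 k.2
  have hgU : stm σ ((suGU n F q g : GL (Fin n) F) : Matrix (Fin n) (Fin n) F) * ((suGU n F q g : GL (Fin n) F) : Matrix (Fin n) (Fin n) F) = 1 := by
    rw [hσd]; exact (mem_GU_iff hF _).1 (suGU n F q g).2
  obtain ⟨a, had⟩ : ∃ a, a = ((k : GL (Fin n) F) : Matrix (Fin n) (Fin n) F).det := ⟨_, rfl⟩
  have hdet1 : ∀ M : Matrix (Fin n) (Fin n) F, (stm σ M).det = σ M.det := by
    intro M
    unfold stm
    rw [Matrix.det_transpose, ← RingHom.mapMatrix_apply, ← RingHom.map_det]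
  have haN : a * σ a = 1 := by
    have h1 := congrArg Matrix.det hkU
    rw [Matrix.det_mul, Matrix.det_one, hdet1, ← had] at h1
    rw [mul_comm]; exact h1
  have haN' : a⁻¹ * σ a⁻¹ = 1 := by
    rw [map_inv₀, ← mul_inv, haN, inv_one]
  obtain ⟨c, hc1, hc2, hc3⟩ := exists_GU_commute σ hσ hne hn hgU m hm hgm a⁻¹ haN'
  have ha0 : a ≠ 0 := left_ne_zero_of_mul_eq_one haN
  have hkc : (k : GL (Fin n) F) * c ∈ Cfsg.GU n F q := by
    rw [mem_GU_iff hF, ← hσd, Units.val_mul, stm_mul, mul_assoc, ← mul_assoc (stm σ ((k : GL (Fin n) F) : Matrix (Fin n) (Fin n) F)), hkU, one_mul, hc1]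
  have hkcd : (((k : GL (Fin n) F) * c : GL (Fin n) F) : Matrix (Fin n) (Fin n) F).det = 1 := by
    rw [Units.val_mul, Matrix.det_mul, hc3, ← had, mul_inv_cancel₀ ha0]
  obtain ⟨u, hu⟩ := exists_su_of (k * c : GL (Fin n) F) hkc hkcd
  rw [isConj_iff]
  refine ⟨u, ?_⟩
  rw [mul_inv_eq_iff_eq_mul]
  apply suGU_injective n F q
  apply Subtype.ext
  rw [map_mul, map_mul, Subgroup.coe_mul, Subgroup.coe_mul, hu, mul_assoc, hc2, ← mul_assoc, ← mul_assoc]
  congr 1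
  exact congrArg Subtype.val hk

end Cfsg.Agent.H14.SUC
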