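import Mathlib
import Cfsg.Agent.H14.SUConj
import Cfsg.Agent.H41.SemisCount

set_option autoImplicit false

/-! The number of classes of semisimple elements of `SU_n(q)`. -/

namespace Cfsg.Agent.H14.SUC

open Polynomial Cfsg.Agent.H43 Cfsg.Agent.H41

theorem charpoly_gl_conj {K : Type*} [Field K] {n : ℕ} (c : GL (Fin n) K) (M : Matrix (Fin n) (Fin n) K) :
    ((c : Matrix (Fin n) (Fin n) K) * M * ((c⁻¹ : GL (Fin n) K) : Matrix (Fin n) (Fin n) K)).charpoly = M.charpoly := by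
  have h1 := Matrix.charpoly_units_conj c M
  rwa [← Matrix.coe_units_inv] at h1

theorem stm_det {K : Type*} [Field K] (σ : K →+* K) {n : ℕ} (M : Matrix (Fin n) (Fin n) K) : (stm σ M).det = σ M.det := by
  unfold stm
  rw [Matrix.det_transpose, ← RingHom.mapMatrix_apply, ← RingHom.map_det]

theorem charpoly_stm_inv {K : Type*} [Field K] (σ : K →+* K) {n : ℕ} (M : Matrix (Fin n) (Fin n) K) (hM : M.det ≠ 0) :
    ((stm σ M)⁻¹).charpoly = dag σ M.charpoly := by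
  have hd : (stm σ M).det ≠ 0 := by
    rw [stm_det]; exact (map_ne_zero_iff σ σ.injective).2 hM
  have hu : IsUnit (stm σ M) := by
    rw [Matrix.isUnit_iff_isUnit_det]; exact hd.isUnit
  rw [Matrix.charpoly_inv _ hu, ← Matrix.reverse_charpoly]
  have h1 : (stm σ M).charpoly = M.charpoly.map σ := by
    unfold stm
    rw [Matrix.charpoly_transpose, Matrix.charpoly_map]
  rw [h1, stm_det, Matrix.det_eq_sign_charpoly_coeff, Ring.inverse_eq_inv', Fintype.card_fin]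
  unfold dag
  rw [map_mul, map_pow, map_neg, map_one, mul_inv, C_mul, ← inv_pow, C_pow]
  have h2 : ((-1 : K)⁻¹) = -1 := by norm_num
  rw [h2, C_neg, C_1, ← mul_assoc, ← mul_pow]
  norm_num

theorem dag_charpoly {F : Type*} [Field F] [Fintype F] {q : ℕ} (hF : Fintype.card F = q ^ 2) (n : ℕ)
    (g : ↥(Cfsg.SU n F q)) : dag (Cfsg.Agent.ClGeo.frob hF) ((g : Matrix.SpecialLinearGroup (Fin n) F) : Matrix (Fin n) (Fin n) F).charpoly =
      ((g : Matrix.SpecialLinearGroup (Fin n) F) : Matrix (Fin n) (Fin n) F).charpoly := by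
  obtain ⟨M, hM⟩ : ∃ M, M = ((g : Matrix.SpecialLinearGroup (Fin n) F) : Matrix (Fin n) (Fin n) F) := ⟨_, rfl⟩
  have hd : M.det = 1 := by rw [hM]; exact g.1.2
  have hU : stm (Cfsg.Agent.ClGeo.frob hF) M * M = 1 := by
    rw [hM]; exact (mem_GU_iff hF _).1 (suGU n F q g).2
  rw [← hM, ← charpoly_stm_inv _ M (by rw [hd]; exact one_ne_zero), Matrix.inv_eq_right_inv hU]

theorem charpoly_coeff {F : Type*} [Field F] [Fintype F] {q : ℕ} (hF : Fintype.card F = q ^ 2) (n : ℕ)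
    (g : ↥(Cfsg.SU n F q)) : ((g : Matrix.SpecialLinearGroup (Fin n) F) : Matrix (Fin n) (Fin n) F).charpoly.coeff 0 = (-1) ^ n ∧
      ∀ i ≤ n, ((g : Matrix.SpecialLinearGroup (Fin n) F) : Matrix (Fin n) (Fin n) F).charpoly.coeff i =
        (-1) ^ n * Cfsg.Agent.ClGeo.frob hF (((g : Matrix.SpecialLinearGroup (Fin n) F) : Matrix (Fin n) (Fin n) F).charpoly.coeff (n - i)) := by
  have h1 := dag_charpoly hF n g
  have hd : ((g : Matrix.SpecialLinearGroup (Fin n) F) : Matrix (Fin n) (Fin n) F).det = 1 := g.1.2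
  obtain ⟨M, hM⟩ : ∃ M, M = ((g : Matrix.SpecialLinearGroup (Fin n) F) : Matrix (Fin n) (Fin n) F) := ⟨_, rfl⟩
  rw [← hM] at h1 hd ⊢
  have h0 : M.charpoly.coeff 0 = (-1) ^ n := by
    rw [Matrix.det_eq_sign_charpoly_coeff, Fintype.card_fin] at hd
    calc M.charpoly.coeff 0 = ((-1) ^ n * (-1) ^ n) * M.charpoly.coeff 0 := by rw [← mul_pow]; norm_num
      _ = (-1) ^ n * ((-1) ^ n * M.charpoly.coeff 0) := by ring
      _ = (-1) ^ n := by rw [hd, mul_one]
  refine ⟨h0, fun i hi => ?_⟩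
  have h2 := dag_coeff (Cfsg.Agent.ClGeo.frob hF) (P := M.charpoly) i (by rw [Matrix.charpoly_natDegree_eq_dim, Fintype.card_fin]; exact hi)
  rw [h1, h0, Matrix.charpoly_natDegree_eq_dim, Fintype.card_fin] at h2
  rw [h2, map_pow, map_neg, map_one]
  congr 1
  rw [← inv_pow]; norm_num

/-- existence -/
theorem exists_su_charpoly {F : Type*} [Field F] [Fintype F] {q : ℕ} (hF : Fintype.card F = q ^ 2) (p : ℕ) [Fact p.Prime] [CharP F p] (n : ℕ)
    (f : F[X]) (hf : f.Monic) (hfd : f.natDegree = n) (h0 : f.coeff 0 = (-1) ^ n) (hdag : dag (Cfsg.Agent.ClGeo.frob hF) f = f) :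
    ∃ g : ↥(Cfsg.SU n F q), (orderOf g).Coprime p ∧ ((g : Matrix.SpecialLinearGroup (Fin n) F) : Matrix (Fin n) (Fin n) F).charpoly = f := by
  classical
  have hpp : p.Prime := Fact.out
  obtain ⟨A₀, hA₀⟩ := exists_charpoly_eq n f hf hfd
  have hd₀ : A₀.det = 1 := by
    rw [Matrix.det_eq_sign_charpoly_coeff, hA₀, h0, Fintype.card_fin, ← mul_pow]; norm_num
  obtain ⟨S, hS⟩ : ∃ S : Matrix.SpecialLinearGroup (Fin n) F, (S : Matrix (Fin n) (Fin n) F) = A₀ := ⟨⟨A₀, hd₀⟩, rfl⟩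
  obtain ⟨j, hj⟩ := exists_coprime_pow p hpp (Fintype.card F) (by
    obtain ⟨m, hm0, hm⟩ := FiniteField.card F p
    rw [hm]; exact dvd_pow_self _ m.ne_zero) S
  obtain ⟨T, hT⟩ : ∃ T, T = S ^ (Fintype.card F ^ j) := ⟨_, rfl⟩
  rw [← hT] at hj
  have hTc : (T : Matrix (Fin n) (Fin n) F).charpoly = f := by
    rw [hT, Matrix.SpecialLinearGroup.coe_pow, charpoly_pow_card_pow, hS, hA₀]
  obtain ⟨m, hmd⟩ : ∃ m, m = orderOf T := ⟨_, rfl⟩
  have hm : (m : F) ≠ 0 := by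
    rw [Ne, CharP.cast_eq_zero_iff F p, hmd]
    intro h1
    exact (Nat.Prime.coprime_iff_not_dvd Fact.out).mp hj.symm h1
  have hTm : (T : Matrix (Fin n) (Fin n) F) ^ m = 1 := by
    rw [← Matrix.SpecialLinearGroup.coe_pow, hmd, pow_orderOf_eq_one, Matrix.SpecialLinearGroup.coe_one]
  have hTd : (T : Matrix (Fin n) (Fin n) F).det = 1 := T.2
  obtain ⟨σ, hσd⟩ : ∃ σ, σ = Cfsg.Agent.ClGeo.frob hF := ⟨_, rfl⟩
  rw [← hσd] at hdag
  have hstu : IsUnit (stm σ (T : Matrix (Fin n) (Fin n) F)).det := by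
    rw [stm_det, hTd, map_one]; exact isUnit_one
  have hstpow : ∀ k : ℕ, stm σ ((T : Matrix (Fin n) (Fin n) F) ^ k) = (stm σ (T : Matrix (Fin n) (Fin n) F)) ^ k := by
    intro k
    induction k with
    | zero => rw [pow_zero, pow_zero, stm_one]
    | succ k ih => rw [pow_succ, stm_mul, ih, pow_succ']
  have hDm : ((stm σ (T : Matrix (Fin n) (Fin n) F))⁻¹) ^ m = 1 := by
    rw [Matrix.inv_pow', ← hstpow, hTm, stm_one, inv_one]
  obtain ⟨P, hP, hPAB⟩ := exists_simil_of_charpoly (T : Matrix (Fin n) (Fin n) F) ((stm σ (T : Matrix (Fin n) (Fin n) F))⁻¹) m hm hTm hDm (by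
    rw [charpoly_stm_inv σ _ (by rw [hTd]; exact one_ne_zero), hTc, hdag])
  have hconj := (exists_conj_GU_iff hF (Matrix.SpecialLinearGroup.toGL T)).2 (by
    refine ⟨Matrix.GeneralLinearGroup.mkOfDetNeZero P hP, ?_⟩
    rw [SemiconjBy]
    have hst : (((Matrix.SpecialLinearGroup.toGL T : GL (Fin n) F) : Matrix (Fin n) (Fin n) F).map (fun x : F => x ^ q)).transpose =
        stm σ (T : Matrix (Fin n) (Fin n) F) := by
      ext i j
      unfold stm
      simp only [Matrix.transpose_apply, Matrix.map_apply, hσd, Cfsg.Agent.ClGeo.frob_apply]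
      rfl
    rw [hst]
    exact hPAB)
  obtain ⟨B, hB⟩ := hconj
  obtain ⟨c, hc⟩ := isConj_iff.1 hB
  have hBd : ((B : GL (Fin n) F) : Matrix (Fin n) (Fin n) F).det = 1 := by
    rw [← hc, Units.val_mul, Units.val_mul, Matrix.det_mul, Matrix.det_mul, mul_comm (Matrix.det _), mul_assoc, ← Matrix.det_mul, Units.mul_inv,
      Matrix.det_one, mul_one]
    exact hTd
  obtain ⟨u, hu⟩ := exists_su_of (B : GL (Fin n) F) B.2 hBd
  have huc : ((u : Matrix.SpecialLinearGroup (Fin n) F) : Matrix (Fin n) (Fin n) F) = ((B : GL (Fin n) F) : Matrix (Fin n) (Fin n) F) :=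
    congrArg Units.val hu
  refine ⟨u, ?_, ?_⟩
  · have h1 : orderOf u = orderOf (B : GL (Fin n) F) := by
      rw [← hu, Subgroup.orderOf_coe, orderOf_injective _ (suGU_injective n F q)]
    have h2 : orderOf (B : GL (Fin n) F) = orderOf (Matrix.SpecialLinearGroup.toGL T) := by
      rw [← hc]
      exact orderOf_injective (MulAut.conj c).toMonoidHom (MulAut.conj c).injective _
    have h3 : orderOf (Matrix.SpecialLinearGroup.toGL T) = orderOf T := orderOf_injective _ Matrix.SpecialLinearGroup.toGL_injective T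
    rw [h1, h2, h3]; exact hj
  · rw [huc, ← hc, ← hTc, Units.val_mul, Units.val_mul]
    have h5 : ((Matrix.SpecialLinearGroup.toGL T : GL (Fin n) F) : Matrix (Fin n) (Fin n) F) = (T : Matrix (Fin n) (Fin n) F) := rfl
    rw [h5]
    exact charpoly_gl_conj c (T : Matrix (Fin n) (Fin n) F)

theorem su_classes {F : Type*} [Field F] [Fintype F] {q : ℕ} (hF : Fintype.card F = q ^ 2) (p : ℕ) [Fact p.Prime] [CharP F p] (n : ℕ) (hn : 1 ≤ n) :
    Nat.card {c : ConjClasses ↥(Cfsg.SU n F q) // ∃ g : ↥(Cfsg.SU n F q), ConjClasses.mk g = c ∧ (orderOf g).Coprime p} = q ^ (n - 1) := by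
  classical
  obtain ⟨n, rfl⟩ : ∃ k, n = k + 1 := ⟨n - 1, by omega⟩
  rw [Nat.add_sub_cancel]
  obtain ⟨σ, hσd⟩ : ∃ σ, σ = Cfsg.Agent.ClGeo.frob hF := ⟨_, rfl⟩
  have hσ : ∀ x, σ (σ x) = x := by rw [hσd]; exact Cfsg.Agent.ClGeo.frob_frob hF
  have hne : σ ≠ RingHom.id F := by rw [hσd]; exact Cfsg.Agent.ClGeo.frob_ne_id hF
  have hcc : ((-1 : F) ^ (n + 1)) * σ ((-1) ^ (n + 1)) = 1 := by
    rw [map_pow, map_neg, map_one, ← mul_pow]; norm_num
  have hcard := card_middle σ hσ hne (K := F) (q := q) (by rw [Nat.card_eq_fintype_card, hF]) n ((-1) ^ (n + 1)) hcc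
  rw [← hcard]
  have hex : ∀ c : {c : ConjClasses ↥(Cfsg.SU (n + 1) F q) // ∃ g : ↥(Cfsg.SU (n + 1) F q), ConjClasses.mk g = c ∧ (orderOf g).Coprime p},
      ∃ g : ↥(Cfsg.SU (n + 1) F q), ConjClasses.mk g = c.1 ∧ (orderOf g).Coprime p := fun c => c.2
  choose r hr1 hr2 using hex
  obtain ⟨cp, hcp⟩ : ∃ cp : ↥(Cfsg.SU (n + 1) F q) → F[X], ∀ g, cp g = ((g : Matrix.SpecialLinearGroup (Fin (n + 1)) F) : Matrix (Fin (n + 1)) (Fin (n + 1)) F).charpoly :=
    ⟨fun g => _, fun g => rfl⟩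
  have hcp1 : ∀ g, (cp g).coeff 0 = (-1) ^ (n + 1) := fun g => by rw [hcp]; exact (charpoly_coeff hF (n + 1) g).1
  have hcp2 : ∀ g, ∀ i ≤ n + 1, (cp g).coeff i = (-1) ^ (n + 1) * σ ((cp g).coeff (n + 1 - i)) := fun g i hi => by
    rw [hcp, hσd]; exact (charpoly_coeff hF (n + 1) g).2 i hi
  have hcp3 : ∀ g, (cp g).Monic := fun g => by rw [hcp]; exact Matrix.charpoly_monic _
  have hcp4 : ∀ g, (cp g).natDegree = n + 1 := fun g => by rw [hcp, Matrix.charpoly_natDegree_eq_dim, Fintype.card_fin]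
  have hcp5 : ∀ g h, IsConj g h → cp g = cp h := by
    intro g h hgh
    obtain ⟨c, hc⟩ := isConj_iff.1 hgh
    have h1 : (suGU (n + 1) F q h : GL (Fin (n + 1)) F) = (suGU (n + 1) F q c : GL (Fin (n + 1)) F) * (suGU (n + 1) F q g : GL (Fin (n + 1)) F) *
        ((suGU (n + 1) F q c : GL (Fin (n + 1)) F))⁻¹ := by
      rw [← hc, map_mul, map_mul, map_inv]; rfl
    have h2 := congrArg Units.val h1
    rw [Units.val_mul, Units.val_mul] at h2
    have h3 := charpoly_gl_conj (suGU (n + 1) F q c : GL (Fin (n + 1)) F) ((suGU (n + 1) F q g : GL (Fin (n + 1)) F) : Matrix (Fin (n + 1)) (Fin (n + 1)) F)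
    rw [← h2] at h3
    rw [hcp, hcp]
    exact h3.symm
  have hcp6 : ∀ g h, (orderOf g).Coprime p → (orderOf h).Coprime p → cp g = cp h → IsConj g h := by
    intro g h hg hh hgh
    rw [hcp, hcp] at hgh
    exact su_conj hF p (n + 1) g h hg hh hgh
  have hcp7 : ∀ f : F[X], f.Monic → f.natDegree = n + 1 → f.coeff 0 = (-1) ^ (n + 1) → dag σ f = f → ∃ g, (orderOf g).Coprime p ∧ cp g = f := by
    intro f h1 h2 h3 h4
    rw [hσd] at h4
    obtain ⟨g, hg1, hg2⟩ := exists_su_charpoly hF p (n + 1) f h1 h2 h3 h4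
    exact ⟨g, hg1, by rw [hcp, hg2]⟩
  have hfin : Finite {v : Fin n → F // ∀ i, v i = (-1) ^ (n + 1) * σ (v i.rev)} := Subtype.finite
  refine Nat.card_congr (Equiv.ofBijective (fun c => (⟨fun i => (cp (r c)).coeff ((i : ℕ) + 1), ?_⟩ : {v : Fin n → F // ∀ i, v i = (-1) ^ (n + 1) * σ (v i.rev)})) ⟨?_, ?_⟩)
  · intro i
    have h1 := hcp2 (r c) ((i : ℕ) + 1) (by omega)
    change (cp (r c)).coeff ((i : ℕ) + 1) = (-1) ^ (n + 1) * σ ((cp (r c)).coeff ((i.rev : ℕ) + 1))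
    rw [h1, Fin.val_rev]
    congr 4
    omega
  · intro c d hcd
    have h1 : ∀ i : Fin n, (cp (r c)).coeff ((i : ℕ) + 1) = (cp (r d)).coeff ((i : ℕ) + 1) := fun i => congrFun (congrArg Subtype.val hcd) i
    have h2 : cp (r c) = cp (r d) := by
      apply monic_eq_of_coeff (hcp3 _) (hcp3 _) (by rw [hcp4, hcp4])
      intro i hi
      rw [hcp4] at hi
      rcases Nat.eq_zero_or_pos i with h0 | h0
      · rw [h0, hcp1, hcp1]
      · have := h1 ⟨i - 1, by omega⟩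
        simpa [Nat.sub_add_cancel h0] using this
    apply Subtype.ext
    rw [← hr1 c, ← hr1 d]
    exact ConjClasses.mk_eq_mk_iff_isConj.mpr (hcp6 _ _ (hr2 c) (hr2 d) h2)
  · rintro ⟨v, hv⟩
    obtain ⟨f, hf⟩ : ∃ f, f = monicOf (n + 1) (Fin.cons ((-1 : F) ^ (n + 1)) v : Fin (n + 1) → F) := ⟨_, rfl⟩
    have hf1 : f.Monic := by rw [hf]; exact monicOf_monic _ _
    have hf2 : f.natDegree = n + 1 := by rw [hf]; exact monicOf_natDegree _ _
    have hf3 : f.coeff 0 = (-1) ^ (n + 1) := by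
      rw [hf]
      have := monicOf_coeff (n + 1) (Fin.cons ((-1 : F) ^ (n + 1)) v : Fin (n + 1) → F) 0
      simpa using this
    have hf4 : ∀ i : Fin n, f.coeff ((i : ℕ) + 1) = v i := by
      intro i
      rw [hf]
      have := monicOf_coeff (n + 1) (Fin.cons ((-1 : F) ^ (n + 1)) v : Fin (n + 1) → F) i.succ
      simpa using this
    have hf5 : dag σ f = f := by
      apply dag_eq_self σ hf1 (by rw [hf3]; exact hcc)
      intro i h0 hi
      rw [hf2] at hi ⊢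
      rw [hf3]
      have h1 := hv ⟨i - 1, by omega⟩
      rw [← hf4, ← hf4] at h1
      have h2 : ((⟨i - 1, by omega⟩ : Fin n) : ℕ) + 1 = i := Nat.sub_add_cancel h0
      have h3 : (((⟨i - 1, by omega⟩ : Fin n).rev : Fin n) : ℕ) + 1 = n + 1 - i := by
        rw [Fin.val_rev]; simp only; omega
      rw [h2, h3] at h1
      exact h1
    obtain ⟨g, hg1, hg2⟩ := hcp7 f hf1 hf2 hf3 hf5
    refine ⟨⟨ConjClasses.mk g, g, rfl, hg1⟩, ?_⟩
    apply Subtype.ext
    funext i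
    change (cp (r ⟨ConjClasses.mk g, g, rfl, hg1⟩)).coeff ((i : ℕ) + 1) = v i
    have h1 : IsConj (r ⟨ConjClasses.mk g, g, rfl, hg1⟩) g := ConjClasses.mk_eq_mk_iff_isConj.mp (hr1 ⟨ConjClasses.mk g, g, rfl, hg1⟩)
    rw [hcp5 _ _ h1, hg2, hf4]

end Cfsg.Agent.H14.SUC
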