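import Cfsg.Agent.H14.SpInv
import Cfsg.Agent.ClassSp.Simple

/-! Involutions of `PSp_2m(q)`, `q` odd. -/

set_option autoImplicit false

namespace Cfsg.Agent.H14.SpInv

open Cfsg.Agent.Witt Cfsg.Agent.ClassSp Module Matrix

variable {F : Type*} [Field F] {m : ℕ}

/-- the standard alternating form as a bilinear form. -/
noncomputable def sfB (m : ℕ) (F : Type*) [Field F] :
    LinearMap.BilinForm F (Fin m ⊕ Fin m → F) :=
  LinearMap.mk₂ F sf sf_add_left (fun a u v => by rw [sf_smul_left, smul_eq_mul]) sf_add_right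
    (fun a u v => by rw [sf_smul_right, smul_eq_mul])

theorem sfB_apply (u v : Fin m ⊕ Fin m → F) : sfB m F u v = sf u v := rfl

theorem sfB_alt : (sfB m F).IsAlt := fun u => sf_self u

theorem sfB_nondeg : (sfB m F).Nondegenerate := by
  have h1 : ∀ u : Fin m ⊕ Fin m → F, (∀ v, sf u v = 0) → u = 0 := fun u hu =>
    eq_zero_of_sf u (fun v => by rw [sf_swap, hu v, neg_zero])
  constructor
  · intro u hu
    exact h1 u hu
  · intro u hu
    apply h1 u
    intro v
    rw [sf_swap]
    have := hu v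
    rw [sfB_apply] at this
    rw [this, neg_zero]

/-- the linear map of a symplectic matrix times a scalar -/
noncomputable def lin (δ : F) (X : symplecticGroup (Fin m) F) :
    (Fin m ⊕ Fin m → F) →ₗ[F] (Fin m ⊕ Fin m → F) :=
  δ • Matrix.mulVecLin (X : Matrix (Fin m ⊕ Fin m) (Fin m ⊕ Fin m) F)

theorem lin_apply (δ : F) (X : symplecticGroup (Fin m) F) (v : Fin m ⊕ Fin m → F) :
    lin δ X v = δ • ((X : Matrix (Fin m ⊕ Fin m) (Fin m ⊕ Fin m) F) *ᵥ v) := rfl

/-- The class invariant. -/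
def Cls (X : symplecticGroup (Fin m) F) (c : ℕ) : Prop :=
  (c = 0 ∧ ∃ e : Fin m → (Fin m ⊕ Fin m → F), IsHyp (sfB m F) e (fun i => lin 1 X (e i)) ∧
    ∀ v, lin 1 X (lin 1 X v) = -v) ∨
  (c ≠ 0 ∧ ∃ δ : F, (δ = 1 ∨ δ = -1) ∧ ∃ (e f : Fin m → (Fin m ⊕ Fin m → F)) (ε : Fin m → F),
    Adapted (sfB m F) (lin δ X) e f ε ∧ Nat.card {i // ε i = -1} = c)

theorem finrank_eq : 2 * m = finrank F (Fin m ⊕ Fin m → F) := by
  rw [finrank_fintype_fun_eq_card]; simp; omega

/-- from an intertwining isometry to conjugacy in `PSp`. -/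
theorem isConj_of_isometry {X Y : symplecticGroup (Fin m) F} {c : F} (hc : c = 1 ∨ c = -1)
    (g : (Fin m ⊕ Fin m → F) ≃ₗ[F] (Fin m ⊕ Fin m → F))
    (hg : ∀ u v, sfB m F (g u) (g v) = sfB m F u v)
    (h : ∀ v, (Y : Matrix (Fin m ⊕ Fin m) (Fin m ⊕ Fin m) F) *ᵥ (g v) =
      c • g ((X : Matrix (Fin m ⊕ Fin m) (Fin m ⊕ Fin m) F) *ᵥ v)) :
    IsConj (X : symplecticGroup (Fin m) F ⧸ Subgroup.center (symplecticGroup (Fin m) F))
      (Y : symplecticGroup (Fin m) F ⧸ Subgroup.center (symplecticGroup (Fin m) F)) := by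
  have hg' : ∀ u v, sf ((g : (Fin m ⊕ Fin m → F) →ₗ[F] (Fin m ⊕ Fin m → F)) u)
      ((g : (Fin m ⊕ Fin m → F) →ₗ[F] (Fin m ⊕ Fin m → F)) v) = sf u v := hg
  set G := ofLin (g : (Fin m ⊕ Fin m → F) →ₗ[F] (Fin m ⊕ Fin m → F)) hg' with hG
  have hGv : ∀ v, (G : Matrix (Fin m ⊕ Fin m) (Fin m ⊕ Fin m) F) *ᵥ v = g v := by
    intro v; rw [hG, ofLin_mulVec]; rfl
  rw [isConj_iff]
  refine ⟨(G : symplecticGroup (Fin m) F ⧸ Subgroup.center (symplecticGroup (Fin m) F)), ?_⟩
  rw [← QuotientGroup.mk_inv, ← QuotientGroup.mk_mul, ← QuotientGroup.mk_mul, QuotientGroup.eq]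
  rw [mem_center_iff]
  refine ⟨c, by rcases hc with h1 | h1 <;> rw [h1] <;> ring, fun v => ?_⟩
  -- (G X G⁻¹)⁻¹ Y v = c v
  have h1 : ∀ v, (Y : Matrix (Fin m ⊕ Fin m) (Fin m ⊕ Fin m) F) *ᵥ v =
      c • (((G * X * G⁻¹ : symplecticGroup (Fin m) F) : Matrix (Fin m ⊕ Fin m) (Fin m ⊕ Fin m) F) *ᵥ v) := by
    intro v
    have h2 := h (g.symm v)
    rw [LinearEquiv.apply_symm_apply] at h2
    rw [h2, mul_mulVec, mul_mulVec, hGv]
    congr 3
    have h3 : ((G⁻¹ : symplecticGroup (Fin m) F) : Matrix (Fin m ⊕ Fin m) (Fin m ⊕ Fin m) F) *ᵥ v = g.symm v := by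
      have h4 := inv_mulVec_mulVec G (g.symm v)
      rw [hGv, LinearEquiv.apply_symm_apply] at h4
      exact h4
    rw [h3]
  rw [mul_mulVec, h1, Matrix.mulVec_smul, inv_mulVec_mulVec]

theorem isConj_of_cls [Finite F] (h2 : (2 : F) ≠ 0) {X Y : symplecticGroup (Fin m) F} {c : ℕ}
    (hX : Cls X c) (hY : Cls Y c) :
    IsConj (X : symplecticGroup (Fin m) F ⧸ Subgroup.center (symplecticGroup (Fin m) F))
      (Y : symplecticGroup (Fin m) F ⧸ Subgroup.center (symplecticGroup (Fin m) F)) := by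
  classical
  rcases hX with ⟨h0, e, he, hxx⟩ | ⟨h0, δ, hδ, e, f, ε, he, hc⟩
  · rcases hY with ⟨-, e', he', hyy⟩ | ⟨h0', -⟩
    · obtain ⟨g, hg, hge, hgf, hext⟩ := exists_isometry sfB_alt he he' finrank_eq
      refine isConj_of_isometry (Or.inl rfl) g hg ?_
      have h1 : (lin 1 Y).comp (g : (Fin m ⊕ Fin m → F) →ₗ[F] (Fin m ⊕ Fin m → F)) =
          (g : (Fin m ⊕ Fin m → F) →ₗ[F] (Fin m ⊕ Fin m → F)).comp (lin 1 X) := by
        apply hext
        · intro i
          change lin 1 Y (g (e i)) = g (lin 1 X (e i))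
          rw [hge, hgf]
        · intro i
          change lin 1 Y (g (lin 1 X (e i))) = g (lin 1 X (lin 1 X (e i)))
          rw [hgf, hyy, hxx, map_neg, hge]
      intro v
      have h3 := LinearMap.congr_fun h1 v
      change lin 1 Y (g v) = g (lin 1 X v) at h3
      rw [lin_apply, lin_apply, one_smul, one_smul] at h3
      rw [h3, one_smul]
    · exact absurd h0 h0'
  · rcases hY with ⟨h0', -⟩ | ⟨-, δ', hδ', e', f', ε', he', hc'⟩
    · exact absurd h0' h0
    · have e1 : {i // ε i = -1} ≃ {i // ε' i = -1} :=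
        (Finite.card_eq.1 (hc.trans hc'.symm)).some
      have e2 : {i // ¬ ε i = -1} ≃ {i // ¬ ε' i = -1} := by
        have h3 : Nat.card {i // ¬ ε i = -1} = Nat.card {i // ¬ ε' i = -1} := by
          have h4 : ∀ ε : Fin m → F, Nat.card {i // ¬ ε i = -1} = m - Nat.card {i // ε i = -1} := by
            intro ε
            rw [Nat.card_eq_fintype_card, Nat.card_eq_fintype_card, Fintype.card_subtype_compl,
              Fintype.card_fin]
          rw [h4, h4, hc, hc']
        exact (Finite.card_eq.1 h3).some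
      set σ : Equiv.Perm (Fin m) := Equiv.subtypeCongr e1 e2 with hσ
      have hσε : ∀ i, ε' (σ i) = ε i := by
        intro i
        by_cases hi : ε i = -1
        · have h3 : σ i = e1 ⟨i, hi⟩ := by
            rw [hσ, Equiv.subtypeCongr]
            simp [Equiv.sumCompl_symm_apply_of_pos (p := fun x => ε x = -1) hi]
          rw [h3, (e1 ⟨i, hi⟩).2, hi]
        · have h3 : σ i = e2 ⟨i, hi⟩ := by
            rw [hσ, Equiv.subtypeCongr]
            simp [Equiv.sumCompl_symm_apply_of_neg (p := fun x => ε x = -1) hi]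
          rw [h3]
          have h4 := (e2 ⟨i, hi⟩).2
          rw [(he'.sq _).resolve_right h4, (he.sq i).resolve_right hi]
      have hhyp : IsHyp (sfB m F) (fun i => e' (σ i)) (fun i => f' (σ i)) :=
        ⟨fun i j => by rw [he'.hyp.ef]; simp, fun i j => he'.hyp.ee _ _, fun i j => he'.hyp.ff _ _⟩
      obtain ⟨g, hg, hge, hgf, hext⟩ := exists_isometry sfB_alt he.hyp hhyp finrank_eq
      have h1 : (lin δ' Y).comp (g : (Fin m ⊕ Fin m → F) →ₗ[F] (Fin m ⊕ Fin m → F)) =
          (g : (Fin m ⊕ Fin m → F) →ₗ[F] (Fin m ⊕ Fin m → F)).comp (lin δ X) := by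
        apply hext
        · intro i
          change lin δ' Y (g (e i)) = g (lin δ X (e i))
          rw [hge, he'.xe, he.xe, map_smul, hge, hσε]
        · intro i
          change lin δ' Y (g (f i)) = g (lin δ X (f i))
          rw [hgf, he'.xf, he.xf, map_smul, hgf, hσε]
      have hδδ : δ' * δ' = 1 := by rcases hδ' with h3 | h3 <;> rw [h3] <;> ring
      refine isConj_of_isometry (c := δ' * δ) ?_ g hg ?_
      · rcases hδ with h3 | h3 <;> rcases hδ' with h4 | h4 <;> rw [h3, h4] <;> simp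
      · intro v
        have h3 := LinearMap.congr_fun h1 v
        change lin δ' Y (g v) = g (lin δ X v) at h3
        rw [lin_apply, lin_apply, map_smul] at h3
        have h4 := congrArg (fun w => δ' • w) h3
        simp only [smul_smul, hδδ, one_smul] at h4
        exact h4

theorem exists_cls [Finite F] (h2 : (2 : F) ≠ 0) {X : symplecticGroup (Fin m) F}
    (hX : X ∉ Subgroup.center (symplecticGroup (Fin m) F))
    (hXX : X * X ∈ Subgroup.center (symplecticGroup (Fin m) F)) : ∃ c ≤ m / 2, Cls X c := by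
  classical
  obtain ⟨a, ha, hsc⟩ := mem_center_iff.1 hXX
  have hiso : ∀ δ : F, (δ = 1 ∨ δ = -1) → ∀ u v, sfB m F (lin δ X u) (lin δ X v) = sfB m F u v := by
    intro δ hδ u v
    have hδδ : δ * δ = 1 := by rcases hδ with h3 | h3 <;> rw [h3] <;> ring
    rw [sfB_apply, sfB_apply, lin_apply, lin_apply, sf_smul_left, sf_smul_right, sf_mulVec,
      ← mul_assoc, hδδ, one_mul]
  have ha' : a = 1 ∨ a = -1 := by
    have : (a - 1) * (a + 1) = 0 := by linear_combination ha
    rcases mul_eq_zero.1 this with h | h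
    · left; linear_combination h
    · right; linear_combination h
  rcases ha' with rfl | rfl
  · -- X² = 1
    have hxx : ∀ δ : F, (δ = 1 ∨ δ = -1) → ∀ u, lin δ X (lin δ X u) = u := by
      intro δ hδ u
      have hδδ : δ * δ = 1 := by rcases hδ with h3 | h3 <;> rw [h3] <;> ring
      have h3 := hsc u
      rw [mul_mulVec, one_smul] at h3
      rw [lin_apply, lin_apply, Matrix.mulVec_smul, smul_smul, hδδ, one_smul, h3]
    have hnot : ∀ (δ : F) (e f : Fin m → (Fin m ⊕ Fin m → F)) (ε : Fin m → F), (δ = 1 ∨ δ = -1) →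
        Adapted (sfB m F) (lin δ X) e f ε → ∀ s : F, (s = 1 ∨ s = -1) → ¬ ∀ i, ε i = s := by
      intro δ e f ε hδ h s hs hall
      apply hX
      obtain ⟨g, hg, hge, hgf, hext⟩ := exists_isometry sfB_alt h.hyp h.hyp finrank_eq
      have h1 : lin δ X = s • LinearMap.id := by
        apply hext
        · intro i; rw [h.xe, hall]; rfl
        · intro i; rw [h.xf, hall]; rfl
      rw [mem_center_iff]
      refine ⟨δ * s, ?_, fun v => ?_⟩
      · rcases hδ with h3 | h3 <;> rcases hs with h4 | h4 <;> rw [h3, h4] <;> ring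
      · have h3 := LinearMap.congr_fun h1 v
        rw [lin_apply] at h3
        have h4 := congrArg (fun w => δ • w) h3
        have hδδ : δ * δ = 1 := by rcases hδ with h5 | h5 <;> rw [h5] <;> ring
        simp only [smul_smul, hδδ, one_smul, LinearMap.smul_apply, LinearMap.id_apply] at h4
        exact h4
    obtain ⟨e, f, ε, h⟩ := exists_adapted sfB_alt sfB_nondeg h2 (hiso 1 (Or.inl rfl))
      (hxx 1 (Or.inl rfl)) m (le_of_eq finrank_eq)
    have hneg : Adapted (sfB m F) (lin (-1) X) e f (fun i => - ε i) := by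
      refine ⟨h.hyp, fun i => ?_, fun i => ?_, fun i => ?_⟩
      · have := h.xe i
        rw [lin_apply] at this ⊢
        rw [one_smul] at this
        rw [this, smul_smul, neg_one_mul]
      · have := h.xf i
        rw [lin_apply] at this ⊢
        rw [one_smul] at this
        rw [this, smul_smul, neg_one_mul]
      · rcases h.sq i with h3 | h3
        · right; rw [h3]
        · left; rw [h3, neg_neg]
    have hcount : Nat.card {i // ε i = -1} + Nat.card {i // - ε i = -1} = m := by
      have h3 : Nat.card {i // - ε i = -1} = Nat.card {i // ¬ ε i = -1} := by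
        apply Nat.card_congr
        apply Equiv.subtypeEquivRight
        intro i
        constructor
        · intro h4 h5
          rw [h5] at h4
          apply h2
          linear_combination h4
        · intro h4
          rw [(h.sq i).resolve_right h4]
      rw [h3, Nat.card_eq_fintype_card, Nat.card_eq_fintype_card, Fintype.card_subtype_compl,
        Fintype.card_fin]
      have : Fintype.card {i // ε i = -1} ≤ m := by
        have := Fintype.card_subtype_le (fun i : Fin m => ε i = -1)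
        rwa [Fintype.card_fin] at this
      omega
    have hpos1 : Nat.card {i // ε i = -1} ≠ 0 := by
      intro h3
      rw [Finite.card_eq_zero_iff] at h3
      apply hnot 1 e f ε (Or.inl rfl) h 1 (Or.inl rfl)
      intro i
      rcases h.sq i with h4 | h4
      · exact h4
      · exact (h3.false ⟨i, h4⟩).elim
    have hpos2 : Nat.card {i // - ε i = -1} ≠ 0 := by
      intro h3
      rw [Finite.card_eq_zero_iff] at h3
      apply hnot 1 e f ε (Or.inl rfl) h (-1) (Or.inr rfl)
      intro i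
      rcases h.sq i with h4 | h4
      · exact (h3.false ⟨i, by rw [h4]⟩).elim
      · exact h4
    rcases le_or_gt (Nat.card {i // ε i = -1}) (m / 2) with h3 | h3
    · exact ⟨_, h3, Or.inr ⟨hpos1, 1, Or.inl rfl, e, f, ε, h, rfl⟩⟩
    · exact ⟨_, by omega, Or.inr ⟨hpos2, -1, Or.inr rfl, e, f, _, hneg, rfl⟩⟩
  · -- X² = -1
    have hxx : ∀ u, lin 1 X (lin 1 X u) = -u := by
      intro u
      have h3 := hsc u
      rw [mul_mulVec, neg_smul, one_smul] at h3
      rw [lin_apply, lin_apply, one_smul, one_smul, h3]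
    obtain ⟨e, he⟩ := exists_hyp_of_neg sfB_alt sfB_nondeg h2 (hiso 1 (Or.inl rfl)) hxx m
      (le_of_eq finrank_eq)
    exact ⟨0, Nat.zero_le _, Or.inl ⟨rfl, e, he, hxx⟩⟩

end Cfsg.Agent.H14.SpInv
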