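import Cfsg.Agent.Witt.Bases
import Cfsg.Agent.Orth.Homs

/-! Classes of elements of square `±1` in symplectic groups: adapted hyperbolic bases. -/

set_option autoImplicit false

namespace Cfsg.Agent.H14.SpInv

open Cfsg.Agent.Witt Module

variable {F V : Type*} [Field F] [AddCommGroup V] [Module F V]

/-- hyperbolic family of eigenvectors -/
structure Adapted (B : LinearMap.BilinForm F V) (x : V →ₗ[F] V) {k : ℕ} (e f : Fin k → V)
    (ε : Fin k → F) : Prop where
  hyp : IsHyp B e f
  xe : ∀ i, x (e i) = ε i • e i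
  xf : ∀ i, x (f i) = ε i • f i
  sq : ∀ i, ε i = 1 ∨ ε i = -1

section

variable {B : LinearMap.BilinForm F V} {x : V →ₗ[F] V} {k : ℕ} {e f : Fin k → V} {ε : Fin k → F}

/-- a nonzero vector orthogonal to a small hyperbolic family. -/
theorem exists_perp [FiniteDimensional F V] (hA : B.IsAlt) (h : IsHyp B e f)
    (hk : 2 * k < finrank F V) :
    ∃ w : V, w ≠ 0 ∧ (∀ i, B w (e i) = 0) ∧ ∀ i, B w (f i) = 0 := by
  classical
  have hsp : Submodule.span F (Set.range (Sum.elim e f)) ≠ ⊤ := by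
    intro htop
    have h1 := finrank_range_le_card (R := F) (Sum.elim e f)
    rw [Set.finrank, htop, finrank_top] at h1
    simp only [Fintype.card_sum, Fintype.card_fin] at h1
    omega
  obtain ⟨v, hv⟩ : ∃ v, v ∉ Submodule.span F (Set.range (Sum.elim e f)) := by
    by_contra hcon
    push Not at hcon
    exact hsp (Submodule.eq_top_iff'.2 hcon)
  refine ⟨v - hypProj B e f v, ?_, ?_, ?_⟩
  · intro h0
    apply hv
    rw [sub_eq_zero.1 h0]
    unfold hypProj
    refine Submodule.sum_mem _ fun i _ => Submodule.sub_mem _ (Submodule.smul_mem _ _ ?_)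
      (Submodule.smul_mem _ _ ?_)
    · exact Submodule.subset_span ⟨Sum.inl i, rfl⟩
    · exact Submodule.subset_span ⟨Sum.inr i, rfl⟩
  · intro i
    rw [map_sub, LinearMap.sub_apply, h.hypProj_e hA, sub_self]
  · intro i
    rw [map_sub, LinearMap.sub_apply, h.hypProj_f, sub_self]

theorem perp_hypProj {u : V} (hu : ∀ i, B u (e i) = 0) (hu' : ∀ i, B u (f i) = 0)
    (v : V) : B u (hypProj B e f v) = 0 := by
  unfold hypProj
  rw [map_sum]
  refine Finset.sum_eq_zero fun i _ => ?_
  rw [map_sub, map_smul, map_smul, hu, hu', smul_zero, smul_zero, sub_zero]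

/-- extension of an adapted family. -/
theorem Adapted.exists_snoc [FiniteDimensional F V] (hA : B.IsAlt) (hB : B.Nondegenerate)
    (h2 : (2 : F) ≠ 0) (hx : ∀ u v, B (x u) (x v) = B u v) (hxx : ∀ u, x (x u) = u)
    (h : Adapted B x e f ε) (hk : 2 * k < finrank F V) :
    ∃ (e' f' : Fin (k + 1) → V) (ε' : Fin (k + 1) → F), Adapted B x e' f' ε' := by
  obtain ⟨w, hw0, hwe, hwf⟩ := exists_perp hA h.hyp hk
  have hee : ∀ i, ε i * ε i = 1 := by
    intro i
    rcases h.sq i with h1 | h1 <;> rw [h1] <;> ring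
  -- choose the sign
  obtain ⟨δ, hδ, hu0⟩ : ∃ δ : F, (δ = 1 ∨ δ = -1) ∧ w + δ • x w ≠ 0 := by
    by_contra hcon
    push Not at hcon
    have h1 := hcon 1 (Or.inl rfl)
    have h3 := hcon (-1) (Or.inr rfl)
    apply hw0
    have h4 : (2 : F) • w = (w + (1 : F) • x w) + (w + (-1 : F) • x w) := by module
    rw [h1, h3, add_zero] at h4
    exact (smul_eq_zero.1 h4).resolve_left h2
  have hδδ : δ * δ = 1 := by rcases hδ with h1 | h1 <;> rw [h1] <;> ring
  set u := w + δ • x w with hu
  have hxu : x u = δ • u := by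
    rw [hu, map_add, map_smul, hxx, smul_add, smul_smul, hδδ, one_smul, add_comm]
  -- B (x v) (e i) = ε i * B v (e i)
  have hBe : ∀ v i, B (x v) (e i) = ε i * B v (e i) := by
    intro v i
    have h1 : e i = ε i • x (e i) := by rw [h.xe, smul_smul, hee, one_smul]
    conv_lhs => rw [h1]
    rw [map_smul, smul_eq_mul, hx]
  have hBf : ∀ v i, B (x v) (f i) = ε i * B v (f i) := by
    intro v i
    have h1 : f i = ε i • x (f i) := by rw [h.xf, smul_smul, hee, one_smul]
    conv_lhs => rw [h1]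
    rw [map_smul, smul_eq_mul, hx]
  have hue : ∀ i, B u (e i) = 0 := by
    intro i
    rw [hu, map_add, LinearMap.add_apply, map_smul, LinearMap.smul_apply, hBe, hwe]; simp
  have huf : ∀ i, B u (f i) = 0 := by
    intro i
    rw [hu, map_add, LinearMap.add_apply, map_smul, LinearMap.smul_apply, hBf, hwf]; simp
  obtain ⟨v, hv⟩ : ∃ v, B u v ≠ 0 := by
    by_contra hcon
    push Not at hcon
    exact hu0 (hB.1 u hcon)
  set v1 := v + δ • x v with hv1
  have hxv1 : x v1 = δ • v1 := by
    rw [hv1, map_add, map_smul, hxx, smul_add, smul_smul, hδδ, one_smul, add_comm]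
  have huv1 : B u v1 = 2 * B u v := by
    have h1 : B u (x v) = δ * B u v := by
      have h3 := hx u (x v)
      rw [hxx, hxu, map_smul, LinearMap.smul_apply, smul_eq_mul] at h3
      exact h3.symm
    rw [hv1, map_add, map_smul, smul_eq_mul, h1]
    linear_combination (B u v) * hδδ
  set p := hypProj B e f v1 with hp
  have hxp : x p = δ • p := by
    have h1 : ∀ i, ε i * B v1 (e i) = δ * B v1 (e i) := by
      intro i
      rw [← hBe, hxv1, map_smul, LinearMap.smul_apply, smul_eq_mul]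
    have h3 : ∀ i, ε i * B v1 (f i) = δ * B v1 (f i) := by
      intro i
      rw [← hBf, hxv1, map_smul, LinearMap.smul_apply, smul_eq_mul]
    rw [hp]
    unfold hypProj
    rw [map_sum, Finset.smul_sum]
    refine Finset.sum_congr rfl fun i _ => ?_
    rw [map_sub, map_smul, map_smul, h.xe, h.xf, smul_smul, smul_smul, smul_sub, smul_smul,
      smul_smul, mul_comm _ (ε i), h3, mul_comm (B v1 (e i)) (ε i), h1]
  set v2 := v1 - p with hv2
  have hxv2 : x v2 = δ • v2 := by rw [hv2, map_sub, hxv1, hxp, smul_sub]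
  have hv2e : ∀ i, B v2 (e i) = 0 := by
    intro i; rw [hv2, map_sub, LinearMap.sub_apply, hp, h.hyp.hypProj_e hA, sub_self]
  have hv2f : ∀ i, B v2 (f i) = 0 := by
    intro i; rw [hv2, map_sub, LinearMap.sub_apply, hp, h.hyp.hypProj_f, sub_self]
  have huv2 : B u v2 = 2 * B u v := by
    rw [hv2, map_sub, hp, perp_hypProj hue huf, sub_zero, huv1]
  set c := B u v2 with hc
  have hc0 : c ≠ 0 := by rw [huv2]; exact mul_ne_zero h2 hv
  refine ⟨Fin.snoc e u, Fin.snoc f (c⁻¹ • v2), Fin.snoc ε δ, ?_, ?_, ?_, ?_⟩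
  · apply h.hyp.snoc hA hue huf
    · intro i; rw [map_smul, LinearMap.smul_apply, hv2e, smul_zero]
    · intro i; rw [map_smul, LinearMap.smul_apply, hv2f, smul_zero]
    · rw [map_smul, ← hc, smul_eq_mul, inv_mul_cancel₀ hc0]
  · intro i
    refine Fin.lastCases ?_ (fun i' => ?_) i
    · rw [Fin.snoc_last, Fin.snoc_last, hxu]
    · rw [Fin.snoc_castSucc, Fin.snoc_castSucc, h.xe]
  · intro i
    refine Fin.lastCases ?_ (fun i' => ?_) i
    · rw [Fin.snoc_last, Fin.snoc_last, map_smul, hxv2, smul_comm]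
    · rw [Fin.snoc_castSucc, Fin.snoc_castSucc, h.xf]
  · intro i
    refine Fin.lastCases ?_ (fun i' => ?_) i
    · rw [Fin.snoc_last]; exact hδ
    · rw [Fin.snoc_castSucc]; exact h.sq i'

theorem exists_adapted [FiniteDimensional F V] (hA : B.IsAlt) (hB : B.Nondegenerate)
    (h2 : (2 : F) ≠ 0) (hx : ∀ u v, B (x u) (x v) = B u v) (hxx : ∀ u, x (x u) = u) (n : ℕ)
    (hn : 2 * n ≤ finrank F V) :
    ∃ (e f : Fin n → V) (ε : Fin n → F), Adapted B x e f ε := by
  induction n with
  | zero =>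
    exact ⟨fun i => i.elim0, fun i => i.elim0, fun i => i.elim0,
      ⟨⟨fun i => i.elim0, fun i => i.elim0, fun i => i.elim0⟩, fun i => i.elim0, fun i => i.elim0,
        fun i => i.elim0⟩⟩
  | succ n ih =>
    obtain ⟨e, f, ε, h⟩ := ih (by omega)
    exact h.exists_snoc hA hB h2 hx hxx (by omega)

/-- adapted families for `x² = -1`. -/
theorem exists_snoc_of_neg [FiniteDimensional F V] [Finite F] (hA : B.IsAlt) (hB : B.Nondegenerate)
    (h2 : (2 : F) ≠ 0) (hx : ∀ u v, B (x u) (x v) = B u v) (hxx : ∀ u, x (x u) = -u)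
    (h : IsHyp B e (fun i => x (e i))) (hk : 2 * k < finrank F V) :
    ∃ e' : Fin (k + 1) → V, IsHyp B e' (fun i => x (e' i)) := by
  obtain ⟨w, hw0, hwe, hwf⟩ := exists_perp hA h hk
  have hBx : ∀ u v, B (x u) v = - B u (x v) := by
    intro u v
    have h1 := hx u (x v)
    rw [hxx, map_neg] at h1
    rw [← h1, neg_neg]
  have hsym : ∀ u v, B u (x v) = B v (x u) := by
    intro u v
    have h1 := hBx u v
    rw [← LinearMap.BilinForm.IsAlt.neg_eq hA] at h1
    linear_combination h1
  -- the complement is invariant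
  have hinv : ∀ u, (∀ i, B u (e i) = 0) → (∀ i, B u (x (e i)) = 0) →
      (∀ i, B (x u) (e i) = 0) ∧ (∀ i, B (x u) (x (e i)) = 0) := by
    intro u h1 h3
    exact ⟨fun i => by rw [hBx, h3, neg_zero], fun i => by rw [hx, h1]⟩
  obtain ⟨v, hv⟩ : ∃ v, B w v ≠ 0 := by
    by_contra hcon
    push Not at hcon
    exact hw0 (hB.1 w hcon)
  set v1 := v - hypProj B e (fun i => x (e i)) v with hv1
  have hv1e : ∀ i, B v1 (e i) = 0 := by
    intro i; rw [hv1, map_sub, LinearMap.sub_apply, h.hypProj_e hA, sub_self]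
  have hv1f : ∀ i, B v1 (x (e i)) = 0 := by
    intro i
    have : B (hypProj B e (fun i => x (e i)) v) (x (e i)) = B v (x (e i)) := h.hypProj_f v i
    rw [hv1, map_sub, LinearMap.sub_apply, this, sub_self]
  have hwv1 : B w v1 ≠ 0 := by
    rw [hv1, map_sub, perp_hypProj hwe hwf, sub_zero]; exact hv
  set v2 := - x v1 with hv2
  have hxv2 : x v2 = v1 := by rw [hv2, map_neg, hxx, neg_neg]
  have hv2e : ∀ i, B v2 (e i) = 0 := by
    intro i; rw [hv2, map_neg, LinearMap.neg_apply, (hinv v1 hv1e hv1f).1, neg_zero]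
  have hv2f : ∀ i, B v2 (x (e i)) = 0 := by
    intro i; rw [hv2, map_neg, LinearMap.neg_apply, (hinv v1 hv1e hv1f).2, neg_zero]
  -- u with B u (x u) ≠ 0
  obtain ⟨u, hue, huf, huu⟩ : ∃ u, (∀ i, B u (e i) = 0) ∧ (∀ i, B u (x (e i)) = 0) ∧ B u (x u) ≠ 0 := by
    by_contra hcon
    push Not at hcon
    have h1 := hcon w hwe hwf
    have h3 := hcon v2 hv2e hv2f
    have h4 := hcon (w + v2) (fun i => by rw [map_add, LinearMap.add_apply, hwe, hv2e, add_zero])
      (fun i => by rw [map_add, LinearMap.add_apply, hwf, hv2f, add_zero])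
    simp only [map_add, LinearMap.add_apply] at h4
    rw [h1, h3, hsym v2 w, hxv2] at h4
    apply hwv1
    have h5 : (2 : F) * B w v1 = 0 := by linear_combination h4
    exact (mul_eq_zero.1 h5).resolve_left h2
  set c := B u (x u) with hc
  obtain ⟨a, b, hab⟩ : ∃ a b : F, a ^ 2 + b ^ 2 = c⁻¹ := by
    obtain ⟨a, b, hab⟩ := Cfsg.Agent.Orth.exists_sum_sq (F := F) one_ne_zero one_ne_zero c⁻¹
    exact ⟨a, b, by linear_combination hab⟩
  set u' := a • u + b • x u with hu'
  have hxu' : x u' = a • x u - b • u := by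
    rw [hu', map_add, map_smul, map_smul, hxx, smul_neg, sub_eq_add_neg]
  have huu' : B u' (x u') = 1 := by
    rw [hxu', hu']
    simp only [map_add, map_sub, map_smul, LinearMap.add_apply, LinearMap.smul_apply, smul_eq_mul]
    have h5 : B (x u) u = - c := by
      rw [← LinearMap.BilinForm.IsAlt.neg_eq hA, hc]
    rw [hA.self_eq_zero, hA.self_eq_zero, h5, ← hc]
    have : c⁻¹ * c = 1 := inv_mul_cancel₀ huu
    linear_combination c * hab + this
  have hu'e : ∀ i, B u' (e i) = 0 := by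
    intro i
    rw [hu', map_add, map_smul, map_smul, LinearMap.add_apply, LinearMap.smul_apply,
      LinearMap.smul_apply, hue, (hinv u hue huf).1, smul_zero, smul_zero, add_zero]
  have hu'f : ∀ i, B u' (x (e i)) = 0 := by
    intro i
    rw [hu', map_add, map_smul, map_smul, LinearMap.add_apply, LinearMap.smul_apply,
      LinearMap.smul_apply, huf, (hinv u hue huf).2, smul_zero, smul_zero, add_zero]
  have hfin := h.snoc hA hu'e hu'f (hinv u' hu'e hu'f).1 (hinv u' hu'e hu'f).2 huu'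
  refine ⟨Fin.snoc e u', ?_⟩
  have : (fun i => x ((Fin.snoc e u' : Fin (k + 1) → V) i)) =
      (Fin.snoc (fun i => x (e i)) (x u') : Fin (k + 1) → V) := by
    funext i
    refine Fin.lastCases ?_ (fun i' => ?_) i
    · rw [Fin.snoc_last, Fin.snoc_last]
    · rw [Fin.snoc_castSucc, Fin.snoc_castSucc]
  rw [this]; exact hfin

theorem exists_hyp_of_neg [FiniteDimensional F V] [Finite F] (hA : B.IsAlt) (hB : B.Nondegenerate)
    (h2 : (2 : F) ≠ 0) (hx : ∀ u v, B (x u) (x v) = B u v) (hxx : ∀ u, x (x u) = -u) (n : ℕ)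
    (hn : 2 * n ≤ finrank F V) :
    ∃ e : Fin n → V, IsHyp B e (fun i => x (e i)) := by
  induction n with
  | zero =>
    exact ⟨fun i => i.elim0, ⟨fun i => i.elim0, fun i => i.elim0, fun i => i.elim0⟩⟩
  | succ n ih =>
    obtain ⟨e, h⟩ := ih (by omega)
    exact exists_snoc_of_neg hA hB h2 hx hxx h (by omega)

/-- The isometry between two hyperbolic bases. -/
theorem exists_isometry {m : ℕ} {e f e' f' : Fin m → V} (hA : B.IsAlt) (h : IsHyp B e f)
    (h' : IsHyp B e' f') (hm : 2 * m = finrank F V) [FiniteDimensional F V] :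
    ∃ g : V ≃ₗ[F] V, (∀ u v, B (g u) (g v) = B u v) ∧ (∀ i, g (e i) = e' i) ∧
      (∀ i, g (f i) = f' i) ∧ ∀ φ ψ : V →ₗ[F] V, (∀ i, φ (e i) = ψ (e i)) → (∀ i, φ (f i) = ψ (f i)) → φ = ψ := by
  classical
  have hcard : Fintype.card (Fin m ⊕ Fin m) = finrank F V := by
    rw [← hm]; simp; omega
  set b := basisOfLinearIndependentOfCardEqFinrank' _ (h.linearIndependent hA) hcard with hb
  set b' := basisOfLinearIndependentOfCardEqFinrank' _ (h'.linearIndependent hA) hcard with hb'
  have hbi : ∀ i, b i = Sum.elim e f i := fun i => by rw [hb]; simp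
  have hbi' : ∀ i, b' i = Sum.elim e' f' i := fun i => by rw [hb']; simp
  set g := b.equiv b' (Equiv.refl _) with hg
  have hgb : ∀ i, g (Sum.elim e f i) = Sum.elim e' f' i := by
    intro i; rw [← hbi, hg, Basis.equiv_apply, Equiv.refl_apply, hbi']
  refine ⟨g, ?_, fun i => hgb (Sum.inl i), fun i => hgb (Sum.inr i), ?_⟩
  · have h1 : (B.compl₁₂ (g : V →ₗ[F] V) (g : V →ₗ[F] V)) = B := by
      refine LinearMap.ext_basis b b fun i j => ?_
      rw [LinearMap.compl₁₂_apply, hbi, hbi]
      change B (g _) (g _) = _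
      rw [hgb, hgb]
      rcases i with i | i <;> rcases j with j | j
      · simp only [Sum.elim_inl]; rw [h.ee, h'.ee]
      · simp only [Sum.elim_inl, Sum.elim_inr]; rw [h.ef, h'.ef]
      · simp only [Sum.elim_inl, Sum.elim_inr]; rw [h.fe hA, h'.fe hA]
      · simp only [Sum.elim_inr]; rw [h.ff, h'.ff]
    intro u v
    have h3 := LinearMap.congr_fun (LinearMap.congr_fun h1 u) v
    rw [LinearMap.compl₁₂_apply] at h3
    exact h3
  · intro φ ψ h1 h3
    refine b.ext fun i => ?_
    rw [hbi]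
    rcases i with i | i
    · exact h1 i
    · exact h3 i

end

end Cfsg.Agent.H14.SpInv
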