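import Cfsg.Agent.Orth.Homs

/-! Vectors with prescribed value of the quadratic form in the orthogonal complement of a
non-degenerate subspace, and the product of three reflections in a plane. -/

set_option autoImplicit false

namespace Cfsg.Agent.H14.Split

open QuadraticMap Cfsg.Agent.Orth

variable {F V : Type*} [Field F] [AddCommGroup V] [Module F V]

/-- The Gram matrix of a family. -/
def gram (Q : QuadraticForm F V) {k : ℕ} (b : Fin k → V) : Matrix (Fin k) (Fin k) F :=
  Matrix.of fun i j => polar Q (b i) (b j)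

theorem inf_perp_eq_bot {Q : QuadraticForm F V} {k : ℕ} (b : Fin k → V) (h : (gram Q b).det ≠ 0) :
    Submodule.span F (Set.range b) ⊓ perp Q (Submodule.span F (Set.range b)) = ⊥ := by
  rw [eq_bot_iff]
  rintro x ⟨hx1, hx2⟩
  obtain ⟨c, rfl⟩ := (Submodule.mem_span_range_iff_exists_fun F).1 hx1
  have hc : (gram Q b).mulVec c = 0 := by
    funext j
    have := hx2 (b j) (Submodule.subset_span ⟨j, rfl⟩)
    change polar Q (b j) _ = 0 at this
    rw [psumr] at this
    simp only [psr] at this
    simpa [Matrix.mulVec, dotProduct, gram, mul_comm] using this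
  have hc0 := Matrix.eq_zero_of_mulVec_eq_zero h hc
  rw [Submodule.mem_bot, hc0]
  simp

theorem card_le_finrank_of_gram [FiniteDimensional F V] {Q : QuadraticForm F V} {k : ℕ}
    (b : Fin k → V) (h : (gram Q b).det ≠ 0) : k ≤ Module.finrank F V := by
  have hli : LinearIndependent F b := by
    rw [Fintype.linearIndependent_iff]
    intro c hc0
    have hc : (gram Q b).mulVec c = 0 := by
      funext j
      have : polar Q (b j) (∑ i, c i • b i) = 0 := by rw [hc0]; simp
      rw [psumr] at this
      simp only [psr] at this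
      simpa [Matrix.mulVec, dotProduct, gram, mul_comm] using this
    have hc1 := Matrix.eq_zero_of_mulVec_eq_zero h hc
    intro i; rw [hc1]; rfl
  have := hli.fintype_card_le_finrank
  rwa [Fintype.card_fin] at this

theorem nondeg_comp_perp [FiniteDimensional F V] {Q : QuadraticForm F V}
    (hQ : (polarBilin Q).Nondegenerate) (U : Submodule F V) (h : U ⊓ perp Q U = ⊥) :
    (polarBilin (Q.comp (perp Q U).subtype)).Nondegenerate := by
  have key : ∀ x : perp Q U, (∀ y : perp Q U, polar Q (x : V) (y : V) = 0) → x = 0 := by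
    intro x hx
    have h1 : (x : V) ∈ perp Q (perp Q U) := by
      rw [mem_perp]
      intro y hy
      rw [pc]
      exact hx ⟨y, hy⟩
    rw [perp_perp hQ] at h1
    have h2 : (x : V) ∈ U ⊓ perp Q U := ⟨h1, x.2⟩
    rw [h, Submodule.mem_bot] at h2
    exact Subtype.ext h2
  constructor
  · intro x hx
    exact key x fun y => hx y
  · intro x hx
    refine key x fun y => ?_
    rw [pc]
    exact hx y

theorem exists_perp_q_eq [Finite F] [FiniteDimensional F V] {Q : QuadraticForm F V}
    (hQ : (polarBilin Q).Nondegenerate) {k : ℕ} (b : Fin k → V) (h : (gram Q b).det ≠ 0)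
    (hk : k + 2 ≤ Module.finrank F V) (c : F) :
    ∃ z, (∀ i, polar Q (b i) z = 0) ∧ Q z = c := by
  set U := Submodule.span F (Set.range b)
  have hW := nondeg_comp_perp hQ U (inf_perp_eq_bot b h)
  have hU : Module.finrank F U ≤ k := by
    have := finrank_range_le_card (R := F) b
    rwa [Fintype.card_fin] at this
  have hfr := finrank_perp hQ U
  obtain ⟨z, hz⟩ := exists_q_eq hW (by omega) c
  refine ⟨z, fun i => ?_, hz⟩
  exact z.2 (b i) (Submodule.subset_span ⟨i, rfl⟩)

/-- The product of three reflections in linearly dependent vectors is a reflection. -/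
theorem refl_mul_refl_mul_refl {Q : QuadraticForm F V} {v w : V} (hv : Q v ≠ 0) (hw : Q w ≠ 0)
    {a : V} {α β : F} (ha' : a = α • v + β • w) (ha : Q a ≠ 0) :
    ∃ (b : V) (hb : Q b ≠ 0), Q b = Q a * Q v * Q w ∧
      refl Q a ha * (refl Q v hv * refl Q w hw) = refl Q b hb := by
  have hqa : Q a = α * α * Q v + β * β * Q w + α * β * polar Q v w := by
    rw [ha', qadd, qsmul, qsmul, psl, psr]; ring
  set b := (α * Q v + β * polar Q v w) • w - (β * Q w) • v with hb'
  have hb : Q b = Q a * Q v * Q w := by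
    rw [hb', qsub, qsmul, qsmul, psl, psr, pc Q w v, hqa]
    ring
  have hb0 : Q b ≠ 0 := by
    rw [hb]
    exact mul_ne_zero (mul_ne_zero ha hv) hw
  refine ⟨b, hb0, hb, ?_⟩
  apply OGrp_ext
  intro x
  rw [coe_mul_apply, coe_mul_apply, refl_apply, refl_apply, refl_apply, refl_apply, hb]
  have e1 : polar Q x b = (α * Q v + β * polar Q v w) * polar Q x w - (β * Q w) * polar Q x v := by
    rw [hb', pdr, psr, psr]
  have e2 : ∀ y, polar Q y a = α * polar Q y v + β * polar Q y w := by
    intro y; rw [ha', par, psr, psr]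
  rw [e1, e2, hb']
  simp only [pdl, psl, pself, pc Q w v]
  clear e1 e2 hb
  clear_value b
  clear hb' hb0
  generalize Q a = qa at *
  rw [ha']
  generalize Q v = qv at *
  generalize Q w = qw at *
  generalize polar Q v w = t at *
  generalize polar Q x v = p at *
  generalize polar Q x w = r at *
  match_scalars
  · ring
  · field_simp
    rw [hqa]
    ring
  · field_simp
    rw [hqa]
    ring

/-- A vector `u'` with `f(u,u') = 1`, orthogonal to `v`. -/
theorem exists_partner {Q : QuadraticForm F V} (hQ : (polarBilin Q).Nondegenerate) (h2 : (2 : F) ≠ 0)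
    {u v : V} (hu : u ≠ 0) (hv : Q v ≠ 0) (huv : polar Q v u = 0) :
    ∃ u', polar Q v u' = 0 ∧ polar Q u u' = 1 := by
  obtain ⟨y, hy⟩ : ∃ y, polar Q u y ≠ 0 := by
    by_contra h
    push Not at h
    exact hu (hQ.1 u h)
  have h1 : polar Q v (y - (polar Q v y / (2 * Q v)) • v) = 0 := by
    rw [pdr, psr, pself]
    field_simp
    ring
  have h3 : polar Q u (y - (polar Q v y / (2 * Q v)) • v) = polar Q u y := by
    rw [pdr, psr, pc Q u v, huv]
    ring
  refine ⟨(polar Q u y)⁻¹ • (y - (polar Q v y / (2 * Q v)) • v), ?_, ?_⟩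
  · rw [psr, h1, mul_zero]
  · rw [psr, h3, inv_mul_cancel₀ hy]

theorem gram_three {Q : QuadraticForm F V} (h2 : (2 : F) ≠ 0) {u v u' : V} (hv : Q v ≠ 0)
    (hu : Q u = 0) (huv : polar Q v u = 0) (h1 : polar Q v u' = 0) (h3 : polar Q u u' = 1) :
    (gram Q ![v, u, u']).det ≠ 0 := by
  have : (gram Q ![v, u, u']).det = - (2 * Q v) := by
    rw [Matrix.det_fin_three]
    simp [gram, hu, huv, h1, h3, pc Q u v, pc Q u' v, pc Q u' u]
  rw [this]
  exact neg_ne_zero.2 (mul_ne_zero h2 hv)

theorem gram_one {Q : QuadraticForm F V} (h2 : (2 : F) ≠ 0) {v : V} (hv : Q v ≠ 0) :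
    (gram Q ![v]).det ≠ 0 := by
  have : (gram Q ![v]).det = 2 * Q v := by
    rw [Matrix.det_fin_one]
    simp [gram]
  rw [this]
  exact mul_ne_zero h2 hv

theorem gram_two {Q : QuadraticForm F V} {v w : V} (h : 4 * Q v * Q w ≠ polar Q v w ^ 2) :
    (gram Q ![v, w]).det ≠ 0 := by
  have : (gram Q ![v, w]).det = 4 * Q v * Q w - polar Q v w ^ 2 := by
    rw [Matrix.det_fin_two]
    simp [gram, pc Q w v]
    ring
  rw [this]
  exact sub_ne_zero.2 h

end Cfsg.Agent.H14.Split
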